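import Cfsg.Agent.ConwayType59.Sylow

/-!
The three classes of involutions.
-/

set_option autoImplicit false
set_option synthInstance.maxSize 2000
set_option linter.unusedSectionVars false
set_option linter.unusedVariables false

namespace CfsgLib.ConwayType59

open Cfsg

variable {G : Type*} [Group G] [Finite G] {z s g : G} {Q : Subgroup G} {pr : G → V} {act : G → Iso}

namespace Frame

variable (F : Frame z s g Q pr act)
include F

theorem not_isConj_z {a b : V6} (hd : Std z s act a b) {y : G}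
    (hy : IsPair Q z s g pr act a b y) : ¬ IsConj z y := by
  haveI : Fact (Nat.Prime 2) := ⟨Nat.prime_two⟩
  intro hcj
  obtain ⟨m, hm⟩ := isConj_iff.1 hcj
  obtain ⟨S0, -, hS0⟩ := LargeExtraspecial.exists_sylow_central F.isLarge F.setup.setting
  obtain ⟨S, hS⟩ := F.exists_dist hd hy
  have hcard : Nat.card ↥(S0 : Subgroup G) ≤ Nat.card ↥S := by
    obtain ⟨h, -, hh⟩ := F.exists_into hd hy hS (P := (S0 : Subgroup G).map (MulAut.conj m).toMonoidHom)
      (S0.isPGroup'.map _) (by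
        rintro _ ⟨x, hx, rfl⟩
        show m * x * m⁻¹ * y = y * (m * x * m⁻¹)
        rw [← hm, show m * x * m⁻¹ * (m * z * m⁻¹) = m * (x * z) * m⁻¹ by group, hS0 x hx]; group)
    refine Nat.card_le_card_of_injective
      (fun x => ⟨h * (m * x.1 * m⁻¹) * h⁻¹, hh _ ⟨x.1, x.2, rfl⟩⟩) fun x x' e => Subtype.ext ?_
    exact mul_left_cancel (mul_right_cancel (mul_left_cancel (mul_right_cancel (congrArg Subtype.val e))))
  have hSQ : S ≤ Subgroup.normalizer (Q : Set G) := fun x hx =>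
    Subgroup.mem_normalizer_iff.2 fun q' => F.setup.setting.normalized x (hS.comm x hx).1 q'
  have hsup : IsPGroup 2 ↥(S ⊔ Q) :=
    IsPGroup.to_sup_of_normal_right' hS.twoGroup
      (LargeExtraspecial.isPGroup_of_isExtraspecial F.setup.setting.extraspecial) hSQ
  obtain ⟨R, hR⟩ := hsup.exists_le_sylow
  have hRS : (R : Subgroup G) = S := by
    refine (Subgroup.eq_of_le_of_card_ge (le_sup_left.trans hR) ?_).symm
    rw [Sylow.card_eq_multiplicity, ← Sylow.card_eq_multiplicity S0]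
    exact hcard
  have hQS : Q ≤ S := hRS ▸ le_sup_right.trans hR
  have hyC : y ∈ Subgroup.centralizer (Q : Set G) :=
    Subgroup.mem_centralizer_iff.2 fun x hx => (hS.comm x (hQS hx)).2
  rw [F.setup.setting.centralizer_eq] at hyC
  exact F.pair_not_mem hd.ne hy (LargeExtraspecial.zOf_le Q hyC)

theorem conj_into {a1 b1 : V6} (h1 : Std z s act a1 b1) {y1 y2 : G}
    (hy1 : IsPair Q z s g pr act a1 b1 y1) {S1 S2 : Subgroup G}
    (hS1 : Dist z Q y1 S1) (hS2 : Dist z Q y2 S2) {k : G} (hk : k * y2 * k⁻¹ = y1) :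
    ∃ k', k' * y2 * k'⁻¹ = y1 ∧ ∀ x ∈ S2, k' * x * k'⁻¹ ∈ S1 := by
  obtain ⟨h, hh, hin⟩ := F.exists_into h1 hy1 hS1 (P := S2.map (MulAut.conj k).toMonoidHom)
    (hS2.twoGroup.map _) (by
      rintro _ ⟨x, hx, rfl⟩
      show k * x * k⁻¹ * y1 = y1 * (k * x * k⁻¹)
      rw [← hk, show k * x * k⁻¹ * (k * y2 * k⁻¹) = k * (x * y2) * k⁻¹ by group, (hS2.comm x hx).2]
      group)
  refine ⟨h * k, ?_, fun x hx => ?_⟩
  · rw [show h * k * y2 * (h * k)⁻¹ = h * (k * y2 * k⁻¹) * h⁻¹ by group, hk, hh, mul_inv_cancel_right]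
  · rw [show h * k * x * (h * k)⁻¹ = h * (k * x * k⁻¹) * h⁻¹ by group]
    exact hin _ ⟨x, hx, rfl⟩

omit F [Finite G] in
theorem residual_two : ∀ v : V, q (E e0 (inj w1) v + v) = 0 := by decide +kernel

omit F [Finite G] in
theorem residual_one : q (E e0 (inj a0) e1 + e1) = 1 := by decide +kernel

theorem not_isConj_pairs {y1 y2 : G} (hy1 : IsPair Q z s g pr act w1 w2 y1)
    (hy2 : IsPair Q z s g pr act a0 b0 y2) : ¬ IsConj y1 y2 := by
  intro hcj
  obtain ⟨k, hk⟩ := isConj_iff.1 hcj.symm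
  obtain ⟨S1, hS1⟩ := F.exists_dist F.std_two hy1
  obtain ⟨S2, hS2⟩ := F.exists_dist F.std_one hy2
  obtain ⟨c, hc, hcin⟩ := F.conj_into F.std_two hy1 hS1 hS2 hk
  have hki : k⁻¹ * y1 * k⁻¹⁻¹ = y2 := by rw [← hk]; group
  obtain ⟨d, hd, hdin⟩ := F.conj_into F.std_one hy2 hS2 hS1 hki
  have hle : Nat.card ↥S1 ≤ Nat.card ↥S2 :=
    Nat.card_le_card_of_injective (fun x => ⟨d * x.1 * d⁻¹, hdin _ x.2⟩) fun x x' e =>
      Subtype.ext (mul_left_cancel (mul_right_cancel (congrArg Subtype.val e)))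
  have hinj : Function.Injective (fun x : ↥S2 => (⟨c * x.1 * c⁻¹, hcin _ x.2⟩ : ↥S1)) := fun x x' e =>
    Subtype.ext (mul_left_cancel (mul_right_cancel (congrArg Subtype.val e)))
  have hsurj := (hinj.bijective_of_nat_card_le hle).2
  have hcz := F.fix_z F.std_two F.std_one hy1 hy2 hS1 hS2 hc fun x => ⟨hcin x, fun hx => by
    obtain ⟨w, hw⟩ := hsurj ⟨_, hx⟩
    have e := mul_left_cancel (mul_right_cancel (congrArg Subtype.val hw))
    exact e ▸ w.2⟩
  have hcc : c * z = z * c := mul_inv_eq_iff_eq_mul.1 hcz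
  have h2 := (F.pair_cs hy2).1
  have hE := F.pair_act hy1 (app (act c) e1)
  rw [← hc, F.setup.act_conj hcc h2, app_mul, app_mul, app_inv_app, F.pair_act hy2] at hE
  have h0 := residual_two (app (act c) e1)
  rw [← hE, ← app_add, app_q, residual_one] at h0
  exact one_ne_zero h0

theorem three_classes :
    ∃ a b c : G, orderOf a = 2 ∧ orderOf b = 2 ∧ orderOf c = 2 ∧ ¬ IsConj a b ∧ ¬ IsConj a c ∧
      ¬ IsConj b c ∧ ∀ x : G, orderOf x = 2 → IsConj x a ∨ IsConj x b ∨ IsConj x c := by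
  haveI : Fact (Nat.Prime 2) := ⟨Nat.prime_two⟩
  obtain ⟨y1, hy1⟩ := F.exists_pair w1 w2
  obtain ⟨y2, hy2⟩ := F.exists_pair a0 b0
  have ho : ∀ {a b : V6} {y : G}, Std z s act a b → IsPair Q z s g pr act a b y → orderOf y = 2 :=
    fun hd hy => orderOf_eq_prime (by rw [sq, F.pair_sq hd.sq1 hd.sq2 hy]) (F.pair_ne_one hd.ne hy)
  refine ⟨z, y1, y2, F.setup.setting.order, ho F.std_two hy1, ho F.std_one hy2,
    F.not_isConj_z F.std_two hy1, F.not_isConj_z F.std_one hy2, F.not_isConj_pairs hy1 hy2,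
    fun x hx => ?_⟩
  obtain ⟨S, -, hS⟩ := LargeExtraspecial.exists_sylow_central F.isLarge F.setup.setting
  have hxp : IsPGroup 2 ↥(Subgroup.zpowers x) :=
    IsPGroup.of_card (n := 1) (by rw [Nat.card_zpowers, hx, pow_one])
  obtain ⟨R, hR⟩ := hxp.exists_le_sylow
  obtain ⟨k, hk⟩ := MulAction.exists_smul_eq G R S
  set y := k * x * k⁻¹ with hy
  have hyS : y ∈ (S : Subgroup G) := by
    rw [← hk, Sylow.coe_subgroup_smul]
    exact ⟨x, hR (Subgroup.mem_zpowers x), rfl⟩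
  have hxy : IsConj x y := isConj_iff.2 ⟨k, rfl⟩
  have hxx : x * x = 1 := by rw [← sq, ← hx, pow_orderOf_eq_one]
  have hy2' : y * y = 1 := by
    rw [hy, show k * x * k⁻¹ * (k * x * k⁻¹) = k * (x * x) * k⁻¹ by group, hxx]; group
  have hy1' : y ≠ 1 := fun e => by
    have : x = 1 := by rw [show x = k⁻¹ * y * k by rw [hy]; group, e]; group
    rw [this, orderOf_one] at hx; omega
  rcases F.classify (hS y hyS) hy2' hy1' with h | ⟨p, hp, h⟩ | ⟨p, hp, h⟩
  · exact Or.inl (hxy.trans h.symm)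
  · exact Or.inr (Or.inl (hxy.trans (h.symm.trans (F.isConj_pair exists_signs_two hp hy1))))
  · exact Or.inr (Or.inr (hxy.trans (h.symm.trans (F.isConj_pair exists_signs_one hp hy2))))

end Frame

end CfsgLib.ConwayType59
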