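import Cfsg.Agent.ConwayType59.Space

/-!
Finite facts about the hyperbolic space of dimension six.
-/

set_option autoImplicit false
set_option synthInstance.maxSize 2000

namespace CfsgLib.ConwayType59

theorem move_singular : ∀ a : V6, qW a = 0 → a ≠ 0 →
    ∃ m : V6, qW m = 1 ∧ ∃ n : V6, qW n = 1 ∧ rfW m (rfW n a) = w1 := by decide +kernel

theorem move_nonsingular : ∀ a : V6, qW a = 1 →
    ∃ m : V6, qW m = 1 ∧ ∃ n : V6, qW n = 1 ∧ rfW m (rfW n a) = a0 := by decide +kernel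

theorem move_second : ∀ b : V6, qW b = 0 → bW b w1 = 0 → b ≠ 0 → b ≠ w1 →
    ∃ m : V6, (qW m = 1 ∧ bW w1 m = 0) ∧ ∃ n : V6, (qW n = 1 ∧ bW w1 n = 0) ∧
      rfW m (rfW n b) = w2 := by decide +kernel

theorem move_second' : ∀ b : V6, qW b = 1 → bW b a0 = 1 →
    ∃ m : V6, (qW m = 1 ∧ bW a0 m = 0) ∧ ∃ n : V6, (qW n = 1 ∧ bW a0 n = 0) ∧
      rfW m (rfW n b) = b0 := by decide +kernel

theorem moved_off_line : ∀ v : V6, v ≠ 0 → v ≠ w1 →
    ∃ m : V6, (qW m = 1 ∧ bW w1 m = 0) ∧ ∃ n : V6, (qW n = 1 ∧ bW w1 n = 0) ∧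
      rfW m (rfW n v) ≠ v := by decide +kernel

end CfsgLib.ConwayType59
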