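import Cfsg.Agent.ConwayType59.Frame

/-!
The isometries fixing the perpendicular of a plane pointwise.
-/

set_option autoImplicit false
set_option synthInstance.maxSize 2000
set_option linter.unusedSectionVars false
set_option linter.unusedVariables false

namespace CfsgLib.ConwayType59

open Cfsg

/-- The perpendicular of the span of `e0` and two vectors of the space of dimension six. -/
def Perp (a b : V6) (v : V) : Prop := B v e0 = 0 ∧ B v (inj a) = 0 ∧ B v (inj b) = 0

instance (a b : V6) (v : V) : Decidable (Perp a b v) := inferInstanceAs (Decidable (_ ∧ _))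

/-- An element of the span. -/
def sp (a b : V6) (c : Fin 3 → ZMod 2) : V := c 0 • e0 + c 1 • inj a + c 2 • inj b

/-- The complementary vectors. -/
def cp (p q' : V6) : Fin 3 → V := ![e1, inj p, inj q']

/-- Coordinates of isometries fixing the perpendicular pointwise. -/
def Good (a b p q' : V6) (c : Fin 3 → Fin 3 → ZMod 2) : Prop :=
  (∀ i, q (cp p q' i + sp a b (c i)) = q (cp p q' i)) ∧
    ∀ i j, B (cp p q' i + sp a b (c i)) (cp p q' j + sp a b (c j)) = B (cp p q' i) (cp p q' j)

instance (a b p q' : V6) (c : Fin 3 → Fin 3 → ZMod 2) : Decidable (Good a b p q' c) :=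
  inferInstanceAs (Decidable (_ ∧ _))

/-- Vectors dual to two vectors. -/
def Dual (a b p q' : V6) : Prop := bW p a = 1 ∧ bW p b = 0 ∧ bW q' a = 0 ∧ bW q' b = 1

/-- The second standard dual vector. -/
def xr1 : V6 := Sum.elim ![0, 0, 0] ![1, 0, 0]
def xr2 : V6 := Sum.elim ![0, 0, 0] ![0, 1, 0]

theorem dual_two : Dual w1 w2 xr1 xr2 := ⟨by decide, by decide, by decide, by decide⟩

theorem dual_one : Dual a0 b0 b0 a0 := ⟨by decide, by decide, by decide, by decide⟩

theorem count_two : Fintype.card {c // Good w1 w2 xr1 xr2 c} < 64 := by decide +kernel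

theorem count_one : Fintype.card {c // Good a0 b0 b0 a0 c} < 64 := by decide +kernel

theorem perp_two : Fintype.card {v : V // Perp w1 w2 v} = 32 := by decide +kernel

theorem perp_one : Fintype.card {v : V // Perp a0 b0 v} = 32 := by decide +kernel

theorem perp_shift {a b p q' : V6} (hd : Dual a b p q') (v : V) :
    Perp a b (v + B v e0 • e1 + B v (inj a) • inj p + B v (inj b) • inj q') := by
  obtain ⟨h1, h2, h3, h4⟩ := hd
  refine ⟨?_, ?_, ?_⟩ <;>
    simp only [B_add_left, B_smul_left, B_e1_e0, B_inj_e0, B_inj, B_comm e1 (inj _), B_inj_e1,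
      h1, h2, h3, h4, mul_one, mul_zero, add_zero, zmod_add_self]

theorem eq_sp {a b p q' : V6} (hd : Dual a b p q') {w : V} (h : ∀ v, Perp a b v → B w v = 0) :
    w = sp a b ![B w e1, B w (inj p), B w (inj q')] := by
  refine eq_of_vadd ?_
  by_contra hne
  obtain ⟨v, hv⟩ := exists_nonperp _ hne
  have e := h _ (perp_shift hd v)
  rw [B_add_right, B_add_right, B_add_right, B_smul_right, B_smul_right, B_smul_right] at e
  simp only [sp, B_add_left, B_smul_left, Matrix.cons_val_zero, Matrix.cons_val_one,
    Matrix.cons_val_two, Matrix.tail_cons, Matrix.head_cons, B_comm e0 v, B_comm (inj a) v,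
    B_comm (inj b) v] at hv
  rw [show B w v + (B w e1 * B v e0 + B w (inj p) * B v (inj a) + B w (inj q') * B v (inj b)) =
    B w v + B v e0 * B w e1 + B v (inj a) * B w (inj p) + B v (inj b) * B w (inj q') by ring, e] at hv
  exact zero_ne_one hv

theorem card_fixer {a b p q' : V6} (hd : Dual a b p q') :
    Nat.card {f : Iso // ∀ v, Perp a b v → app f v = v} ≤
      Fintype.card {c // Good a b p q' c} := by
  rw [← Nat.card_eq_fintype_card]
  have hk : ∀ (f : Iso), (∀ v, Perp a b v → app f v = v) → ∀ i,
      ∃ c, app f (cp p q' i) = cp p q' i + sp a b c := by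
    intro f hf i
    refine ⟨![B (app f (cp p q' i) + cp p q' i) e1, B (app f (cp p q' i) + cp p q' i) (inj p),
      B (app f (cp p q' i) + cp p q' i) (inj q')], ?_⟩
    rw [← eq_sp hd (w := app f (cp p q' i) + cp p q' i), add_comm (app f _), vadd_cancel_left]
    intro v hv
    rw [B_add_left]
    nth_rewrite 1 [← hf v hv]
    rw [app_B, zmod_add_self]
  choose! c hc using hk
  refine Nat.card_le_card_of_injective
    (fun f => ⟨c f.1, fun i => by rw [← hc f.1 f.2 i, app_q],
      fun i j => by rw [← hc f.1 f.2 i, ← hc f.1 f.2 j, app_B]⟩) fun f f' e => ?_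
  have e' : c f.1 = c f'.1 := congrArg Subtype.val e
  have hp : ∀ i, app f.1 (cp p q' i) = app f'.1 (cp p q' i) := fun i => by
    rw [hc f.1 f.2, hc f'.1 f'.2, e']
  refine Subtype.ext (iso_ext fun v => ?_)
  set v' := v + B v e0 • e1 + B v (inj a) • inj p + B v (inj b) • inj q' with hv'
  have hP : Perp a b v' := perp_shift hd v
  have hback : v = v' + (B v e0 • cp p q' 0 + B v (inj a) • cp p q' 1 + B v (inj b) • cp p q' 2) := by
    rw [show v' = v + (B v e0 • cp p q' 0 + B v (inj a) • cp p q' 1 + B v (inj b) • cp p q' 2) by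
      rw [hv']; simp only [cp, Matrix.cons_val_zero, Matrix.cons_val_one, Matrix.cons_val_two,
        Matrix.tail_cons, Matrix.head_cons]; abel, vadd_cancel]
  rw [hback]
  simp only [app_add, app_smul, hp, f.2 v' hP, f'.2 v' hP]

end CfsgLib.ConwayType59
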