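import Cfsg.Agent.ConwayType59.Frame

/-!
The shape of an involution of the commutator subgroup: a good singular vector in its residual space.
-/

set_option autoImplicit false
set_option synthInstance.maxSize 2000
set_option linter.unusedSectionVars false

namespace CfsgLib.ConwayType59

open Cfsg CfsgLib.OrthGeo CfsgLib.Classical.Orth

local notation "Om" => Omega (ZMod 2) Q8

theorem fix_perp_residual {f : Iso} (hsq : ∀ x, app f (app f x) = x) (x u : V) :
    B (app f x + x) u = B x (app f u + u) := by
  rw [B_add_left, B_add_right]
  congr 1
  rw [← app_B f (app f x) u, hsq]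

/-- An involution with totally singular residual space lies in the commutator subgroup. -/
theorem mem_omega_of_singular {f : Iso} (hsq : ∀ x, app f (app f x) = x)
    (hts : ∀ x, q (app f x + x) = 0) : f ∈ Om := by
  classical
  generalize hn : (Finset.univ.filter fun x : V => app f x ≠ x).card = n
  induction n using Nat.strong_induction_on generalizing f with
  | _ n ih =>
    by_cases hall : ∀ x, app f x = x
    · rw [show f = 1 from iso_ext fun x => by rw [hall, app_one]]
      exact one_mem _
    push Not at hall
    obtain ⟨v1, hv1⟩ := hall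
    obtain ⟨l, hl⟩ : ∃ l, l = app f v1 + v1 := ⟨_, rfl⟩
    have hl0 : l ≠ 0 := fun e => hv1 (eq_of_vadd (hl.symm.trans e))
    obtain ⟨v2, hv2⟩ := exists_nonperp l hl0
    obtain ⟨l', hl'⟩ : ∃ l', l' = app f v2 + v2 := ⟨_, rfl⟩
    have hfl : app f l = l := by rw [hl, app_add, hsq, add_comm]
    have hfl' : app f l' = l' := by rw [hl', app_add, hsq, add_comm]
    have hz : ∀ x, B (app f x + x) l = 0 ∧ B (app f x + x) l' = 0 := by
      intro x
      constructor <;>
        rw [fix_perp_residual hsq] <;>
        simp only [hfl, hfl', vadd_self, B_zero_right]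
    have hll : B l l' = 0 := by rw [hl]; exact (hz v1).2
    have hql : q l = 0 := by rw [hl]; exact hts v1
    have hql' : q l' = 0 := by rw [hl']; exact hts v2
    have h11 : B v1 l = 0 := by
      have := hts v1
      rw [q_add, app_q, zmod_add_self, zero_add] at this
      rw [hl, B_add_right, B_self, add_zero, B_comm]
      exact this
    have h12 : B v1 l' = 1 := by
      rw [hl', ← fix_perp_residual hsq, ← hl, hv2]
    obtain ⟨e, he, hee⟩ := eichler_mem_omega hnd (by simp)
      (show Q8 l = 0 by rw [Q8_eq]; exact hql)
      (show bform hnd l l' = 0 by rw [bform_eq]; exact hll)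
    have happ : ∀ x, app e x = x + B x l • l' + B x l' • l := by
      intro x
      show ((e : GL I8 (ZMod 2)) : Matrix I8 I8 (ZMod 2)).mulVec x = _
      rw [show (e : GL I8 (ZMod 2)) = _ from hee, eichler_mulVec, bform_eq, bform_eq, Q8_eq,
        hql', B_comm l' x, B_comm l x, vsub_eq, vsub_eq]
      simp only [zero_mul, zero_smul, add_zero]
      abel
    set f' := f * e with hf'
    have hfx : ∀ x, app f' x = app f x + B x l • l' + B x l' • l := by
      intro x
      rw [hf', app_mul, happ, app_add, app_add, app_smul, app_smul, hfl, hfl']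
    have hN : ∀ x, app f' x + x = (app f x + x) + (B x l • l' + B x l' • l) := by
      intro x; rw [hfx]; abel
    have hsq' : ∀ x, app f' (app f' x) = x := by
      intro x
      have h1 : B (app f' x) l = B x l := by
        have := (hz x).1
        rw [B_add_left] at this
        rw [hfx, B_add_left, B_add_left, B_smul_left, B_smul_left, B_self, B_comm l' l, hll, mul_zero,
          mul_zero, add_zero, add_zero]
        exact zmod_eq_of_add _ _ this
      have h2 : B (app f' x) l' = B x l' := by
        have := (hz x).2
        rw [B_add_left] at this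
        rw [hfx, B_add_left, B_add_left, B_smul_left, B_smul_left, B_self, hll, mul_zero,
          mul_zero, add_zero, add_zero]
        exact zmod_eq_of_add _ _ this
      rw [hfx (app f' x), h1, h2, hfx x, app_add, app_add, app_smul, app_smul, hfl, hfl', hsq]
      calc x + B x l • l' + B x l' • l + B x l • l' + B x l' • l
          = x + ((B x l • l' + B x l • l') + (B x l' • l + B x l' • l)) := by abel
        _ = x := by rw [vadd_self, vadd_self, add_zero, add_zero]
    have hts' : ∀ x, q (app f' x + x) = 0 := by
      intro x
      rw [hN, q_add, hts x, zero_add, B_add_right, B_smul_right, B_smul_right, (hz x).1, (hz x).2,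
        mul_zero, mul_zero, add_zero, add_zero]
      rcases zmod_cases (B x l) with e1' | e1' <;> rcases zmod_cases (B x l') with e2' | e2' <;>
        simp [e1', e2', q_zero, q_add, B_comm l' l, hll, hql, hql']
    have hlt : (Finset.univ.filter fun x : V => app f' x ≠ x).card < n := by
      rw [← hn]
      refine Finset.card_lt_card (Finset.ssubset_iff_of_subset ?_ |>.2 ⟨v1, ?_, ?_⟩)
      · intro x hx
        simp only [Finset.mem_filter, Finset.mem_univ, true_and] at hx ⊢
        intro e'
        apply hx
        have a1 : B x l = 0 := by rw [hl, ← fix_perp_residual hsq, e', vadd_self, B_zero_left]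
        have a2 : B x l' = 0 := by rw [hl', ← fix_perp_residual hsq, e', vadd_self, B_zero_left]
        rw [hfx, e', a1, a2, zero_smul, zero_smul, add_zero, add_zero]
      · simpa using hv1
      · simp only [Finset.mem_filter, Finset.mem_univ, true_and, not_not]
        rw [hfx, h11, h12, zero_smul, one_smul, add_zero, hl, vadd_cancel_left]
    have hm := ih _ hlt hsq' hts' rfl
    exact (mul_mem_cancel_right he).1 hm

/-- A singular vector in the residual space of an involution with a good perpendicular. -/
theorem exists_good_vector {f : Iso} (hf : f ∈ Om) (hsq : ∀ x, app f (app f x) = x)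
    (hne : ∃ x, app f x ≠ x) :
    ∃ v, app f v + v ≠ 0 ∧ q (app f v + v) = 0 ∧
      ∀ x, B x (app f v + v) = 0 → q (app f x + x) = 0 := by
  classical
  have hzero : ∀ x y, B (app f x + x) (app f y + y) = 0 := by
    intro x y
    rw [fix_perp_residual hsq, app_add, hsq, add_comm y, vadd_self, B_zero_right]
  have hlin : ∀ x y, q (app f (x + y) + (x + y)) = q (app f x + x) + q (app f y + y) := by
    intro x y
    rw [app_add, show app f x + app f y + (x + y) = (app f x + x) + (app f y + y) by abel, q_add,
      hzero, add_zero]
  let ψ : V →+ ZMod 2 := AddMonoidHom.mk' (fun x => q (app f x + x)) hlin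
  set a := ((bform hnd).toDual (b_nondeg hnd)).symm (AddMonoidHom.toZModLinearMap 2 ψ) with ha
  have hrep : ∀ x, q (app f x + x) = B x a := by
    intro x
    have := LinearMap.BilinForm.apply_toDual_symm_apply (hB := b_nondeg hnd)
      (AddMonoidHom.toZModLinearMap 2 ψ) x
    rw [← ha, bform_eq, B_comm] at this
    exact this.symm
  have haR : ∃ u, app f u + u = a := by
    have hm : a ∈ residual (f : GL I8 (ZMod 2)) := by
      rw [residual_eq_perp hnd f.2, mem_perp']
      intro w hw
      have hw' : app f w = w := mem_fixedSpace.1 hw
      rw [bform_eq, B_comm, ← hrep, hw', vadd_self, q_zero]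
    obtain ⟨u, hu⟩ := Classical.Orth.mem_residual.1 hm
    exact ⟨u, by rw [← hu, vsub_eq, add_comm]; rfl⟩
  by_cases h0 : a = 0
  · obtain ⟨v, hv⟩ := hne
    refine ⟨v, fun e => hv (eq_of_vadd e), by rw [hrep, h0, B_zero_right], fun x _ => ?_⟩
    rw [hrep, h0, B_zero_right]
  obtain ⟨u, hu⟩ := haR
  refine ⟨u, by rw [hu]; exact h0, ?_, fun x hx => by rw [hu] at hx; rw [hrep, hx]⟩
  rw [hu]
  rcases zmod_cases (q a) with hqa | hqa
  · exact hqa
  exfalso
  have hfa : app f a = a := by rw [← hu, app_add, hsq, add_comm]
  have happ : ∀ x, app (f * rf a hqa) x = app f x + B x a • a := by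
    intro x; rw [app_mul, app_rf, app_add, app_smul, hfa]
  have hsq' : ∀ x, app (f * rf a hqa) (app (f * rf a hqa) x) = x := by
    intro x
    rw [happ, happ x, B_add_left, B_smul_left, B_self, mul_zero, add_zero, app_add, app_smul, hfa,
      hsq, ← hfa, app_B, hfa, vadd_cancel]
  refine rf_not_mem a hqa ((mul_mem_cancel_left hf).1 (mem_omega_of_singular hsq' fun x => ?_))
  have hB : B (app f x + x) a = 0 := by rw [← hu, hzero]
  rw [happ, show app f x + B x a • a + x = (app f x + x) + B x a • a by abel, q_add, hrep,
    B_smul_right, hB, mul_zero, add_zero]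
  rcases zmod_cases (B x a) with e | e <;> simp [e, q_zero, hqa, zmod_add_self]

end CfsgLib.ConwayType59
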