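import Cfsg.Agent.ConwayType59.Reduce

/-!
The classification of the involutions of the centralizer of `z`.
-/

set_option autoImplicit false
set_option synthInstance.maxSize 2000
set_option linter.unusedSectionVars false
set_option linter.unusedVariables false

namespace CfsgLib.ConwayType59

open Cfsg

variable {G : Type*} [Group G] [Finite G] {z s g : G} {Q : Subgroup G} {pr : G → V} {act : G → Iso}

namespace Frame

variable (F : Frame z s g Q pr act)
include F

theorem exists_twist : ∃ T : V6 → V6, (∀ a b, T (a + b) = T a + T b) ∧ Function.Bijective T ∧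
    (∀ a, qW (T a) = qW a) ∧ (∀ a b, bW (T a) (T b) = bW a b) ∧
    (∀ x, InX Q s x → pu act (g * x * g⁻¹) = T (px pr x)) ∧
    (∀ c, Cs z s c → ∀ a, T (br act (g⁻¹ * c * g) a) = br act c (T a)) := by
  obtain ⟨T, hadd, hbij, hq, hB, hspec⟩ := F.exists_iso
  refine ⟨T, hadd, hbij, hq, hB, hspec, fun c hc a => ?_⟩
  obtain ⟨x, hx, rfl⟩ := F.exists_x a
  rw [← hspec x hx, ← F.pu_conj hc (F.u_of_x hx), ← F.px_conj (F.cs_g_inv hc) hx,
    ← hspec _ (F.x_conj (F.cs_g_inv hc) hx)]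
  congr 1
  group

/-- The commutator with an element of the subgroup of `s`, through the conjugate. -/
theorem comm_exp {y u1 : G} (hy : Cs z s y) (hu : InU Q z g u1)
    (hfix : br act y (pu act u1) = pu act u1) {T : V6 → V6} (hinj : Function.Injective T)
    (hB : ∀ a b, bW (T a) (T b) = bW a b)
    (hspec : ∀ x, InX Q s x → pu act (g * x * g⁻¹) = T (px pr x))
    (hint : ∀ c, Cs z s c → ∀ a, T (br act (g⁻¹ * c * g) a) = br act c (T a)) :
    ∃ i, y * u1 * y⁻¹ * u1⁻¹ =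
      pw s i * pw z (bW (pu act u1) (T (pu act (g⁻¹ * y * g)))) := by
  have hi : pu act u1⁻¹ = pu act u1 := by
    have := F.pu_mul (F.u_inv hu) hu
    rw [inv_mul_cancel, F.pu_q Q.one_mem] at this
    exact eq_of_vadd this.symm
  have hdU : InU Q z g (y * u1 * y⁻¹ * u1⁻¹) := F.u_mul (F.u_conj hy hu) (F.u_inv hu)
  obtain ⟨i, k, e⟩ := F.pu_zero hdU (by
    rw [F.pu_mul (F.u_conj hy hu) (F.u_inv hu), F.pu_conj hy hu, hfix, hi, vadd_self])
  refine ⟨i, ?_⟩
  rw [e]
  congr 2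
  set y' := g⁻¹ * y * g with hy'
  set x' := g⁻¹ * u1 * g with hx'
  have hyC := F.cs_g_inv hy
  have hxX := F.x_back hu
  have hTb : T (px pr x') = pu act u1 := by
    rw [← hspec _ hxX, show g * (g⁻¹ * u1 * g) * g⁻¹ = u1 by group]
  have hbfix : br act y' (px pr x') = px pr x' := hinj (by rw [hint y hy, hTb, hfix])
  have e2 : y' * x' * y'⁻¹ * x'⁻¹ = pw z i * pw s k := by
    rw [show y' * x' * y'⁻¹ * x'⁻¹ = g⁻¹ * (y * u1 * y⁻¹ * u1⁻¹) * g by rw [hy', hx']; group, e,
      show g⁻¹ * (pw s i * pw z k) * g = (g⁻¹ * pw s i * g⁻¹⁻¹) * (g⁻¹ * pw z k * g⁻¹⁻¹) by group,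
      pw_conj, pw_conj, inv_inv, F.g_inv_s, F.g_inv_z]
  have e3 := congrArg pr e2
  rw [(F.pr_pw' i k).2, F.setup.pr_mul _ (F.setup.conj_mem hyC.1 hxX.1) _ (Q.inv_mem hxX.1),
    F.setup.pr_inv hxX.1, F.setup.act_pr y' hyC.1 x' hxX.1, F.pr_eq hxX, app_add, app_smul,
    F.fix_e0 hyC, F.app_fix hyC hbfix] at e3
  rw [← hTb, hB]
  have := congrFun e3 (.inl 0)
  simp only [Pi.add_apply, Pi.smul_apply, inj_inl, show e0 (.inl 0) = 1 from rfl, smul_eq_mul,
    mul_one, add_zero] at this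
  rw [← this]
  linear_combination zmod_add_self (pr x' (.inl 0))

theorem exists_standard {y : G} (hy : Cs z s y) (hy2 : y * y = 1)
    (hts : ∀ a, qW (br act y a + a) = 0) (hne : ∃ a, br act y a ≠ a) :
    ∃ d, Cs z s d ∧ ∀ a, br act (d * y * d⁻¹) a = rt a := by
  have hself : ∀ a b, bW (br act y a + a) b = bW a (br act y b + b) := by
    intro a b
    rw [bW_add_left, bW_add_right]
    congr 1
    rw [← F.br_B hy (br act y a) b, F.br_invol hy hy2]
  have hal : ∀ a, bW (br act y a + a) a = 0 := by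
    intro a
    have := hts a
    rw [qW_add, F.br_q hy, zmod_add_self, zero_add] at this
    rw [bW_add_left, bW_self, add_zero]
    exact this
  obtain ⟨v1, hv1⟩ := hne
  obtain ⟨l, hl⟩ : ∃ l, l = br act y v1 + v1 := ⟨_, rfl⟩
  have hl0 : l ≠ 0 := fun e => hv1 (eq_of_vadd (hl.symm.trans e))
  obtain ⟨v2, hv2⟩ := exists_nonperp_six l hl0
  obtain ⟨l', hl'⟩ : ∃ l', l' = br act y v2 + v2 := ⟨_, rfl⟩
  have hcross : bW v1 l' = 1 := by rw [hl', ← hself, ← hl, hv2]
  have hvl : bW v1 l = 0 := by rw [hl, bW_comm]; exact hal v1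
  have hll : bW l' l = 0 := by
    rw [hl, hl', hself]
    have : br act y (br act y v1 + v1) = br act y v1 + v1 := by
      rw [br, bar_add]
      show br act y (br act y v1) + br act y v1 = _
      rw [F.br_invol hy hy2, add_comm]
    rw [this, vadd_self, bW_zero_right]
  have hq1 : qW l = 0 := by rw [hl]; exact hts v1
  have hq2 : qW l' = 0 := by rw [hl']; exact hts v2
  obtain ⟨c, hc, hcl⟩ := F.exists_to_w1 hq1 hl0
  obtain ⟨m, ⟨hm, hm1⟩, n, ⟨hn, hn1⟩, hmn⟩ := move_second (br act c l')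
    (by rw [F.br_q hc, hq2]) (by rw [← hcl, F.br_B hc, hll])
    (fun e => by
      have := bar_injective (F.fix_e0 hc) (e.trans (bar_zero _).symm)
      rw [this, bW_zero_right] at hcross
      exact zero_ne_one hcross)
    (fun e => by
      have := bar_injective (F.fix_e0 hc) (e.trans hcl.symm)
      rw [this, hvl] at hcross
      exact zero_ne_one hcross)
  obtain ⟨d, hd, hdb⟩ := F.exists_cs hm hn
  have hD := F.cs_mul hd hc
  refine ⟨d * c, hD, ?_⟩
  have hD1 : br act (d * c) l = w1 := by rw [F.br_mul hd hc, hcl, hdb, rfW_fix hn1, rfW_fix hm1]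
  have hD2 : br act (d * c) l' = w2 := by rw [F.br_mul hd hc, hdb, hmn]
  set D := d * c with hDdef
  have hy' : Cs z s (D * y * D⁻¹) := F.cs_conj hD hy
  have hy'2 : D * y * D⁻¹ * (D * y * D⁻¹) = 1 := by
    rw [show D * y * D⁻¹ * (D * y * D⁻¹) = D * (y * y) * D⁻¹ by group, hy2]; group
  have hN : ∀ a, br act (D * y * D⁻¹) (br act D a) = br act D (br act y a) := by
    intro a
    rw [F.br_mul (F.cs_mul hD hy) (F.cs_inv hD), F.br_inv hD, F.br_mul hD hy]
  intro a
  have key := eq_rt (N := fun b => br act (D * y * D⁻¹) b + b)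
    (fun p q => by
      show br act (D * y * D⁻¹) (p + q) + (p + q) = _
      rw [br, bar_add]
      show br act (D * y * D⁻¹) p + br act (D * y * D⁻¹) q + (p + q) = _
      abel)
    (fun p q => by
      rw [bW_add_left, bW_add_right]
      congr 1
      rw [← F.br_B hy' (br act (D * y * D⁻¹) p) q, F.br_invol hy' hy'2])
    (fun p => by
      show br act (D * y * D⁻¹) (br act (D * y * D⁻¹) p + p) + (br act (D * y * D⁻¹) p + p) = 0
      rw [br, bar_add]
      show br act (D * y * D⁻¹) (br act (D * y * D⁻¹) p) + br act (D * y * D⁻¹) p +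
        (br act (D * y * D⁻¹) p + p) = 0
      rw [F.br_invol hy' hy'2, add_comm p, vadd_self])
    (fun p => by
      obtain ⟨p0, rfl⟩ : ∃ p0, br act D p0 = p := ⟨_, F.br_inv' hD p⟩
      show qW (br act (D * y * D⁻¹) (br act D p0) + br act D p0) = 0
      rw [hN]
      show qW (bar (act D) (br act y p0) + bar (act D) p0) = 0
      rw [← bar_add]
      exact (F.br_q hD _).trans (hts p0))
    (fun p => by
      obtain ⟨p0, rfl⟩ : ∃ p0, br act D p0 = p := ⟨_, F.br_inv' hD p⟩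
      show bW (br act (D * y * D⁻¹) (br act D p0) + br act D p0) (br act D p0) = 0
      rw [hN, bW_add_left, F.br_B hD, F.br_B hD, ← bW_add_left, hal])
    (v1 := br act D v1) (v2 := br act D v2)
    (by show br act (D * y * D⁻¹) (br act D v1) + br act D v1 = w1
        rw [hN, ← hD1, hl]
        exact (bar_add _ _ _).symm)
    (by show br act (D * y * D⁻¹) (br act D v2) + br act D v2 = w2
        rw [hN, ← hD2, hl']
        exact (bar_add _ _ _).symm)
    (by rw [← hD2, F.br_B hD, hcross])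
    (by rw [← hD1, F.br_B hD, bW_comm, hv2])
    (by rw [← hD1, F.br_B hD, hvl])
    (by rw [← hD2, F.br_B hD, hl', bW_comm]; exact hal v2) a
  rw [← key]
  show _ = a + (br act (D * y * D⁻¹) a + a)
  rw [add_comm (br act (D * y * D⁻¹) a) a, vadd_cancel_left]

/-- A standard root involution reduces. -/
theorem reduce_root {y : G} (hy : Cs z s y) (hy2 : y * y = 1) (hy1 : y ≠ 1)
    (hb : ∀ a, br act y a = rt a) :
    ∃ y', Cs z s y' ∧ (∀ a, br act y' a = a) ∧ y' * y' = 1 ∧ y' ≠ 1 ∧ IsConj y y' := by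
  obtain ⟨T, hadd, hbij, hq, hB, hspec, hint⟩ := F.exists_twist
  obtain ⟨t, htC, ht2, htm, hC, hU⟩ := F.exists_t0
  -- the commutator, computed
  have hcomp : ∀ {u x u1 : G}, InU Q z g u → InX Q s x → InU Q z g u1 →
      bW (pu act u1) w1 = 0 → bW (pu act u1) w2 = 0 → ∀ {j}, t * u1 * t⁻¹ * u1⁻¹ = pw z j →
      ∀ y0, y0 = t * u * x →
      ∃ i, y0 * u1 * y0⁻¹ * u1⁻¹ = pw s i * pw z (j + bW (pu act u1) (px pr x)) := by
    intro u x u1 hu hx hu1 p1 p2 j hj y0 hy0
    obtain ⟨k, hk⟩ := F.pr_u_skew hu hu1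
    set β := bW (pu act u1) (px pr x) with hβ
    refine ⟨k + β, ?_⟩
    have hx1 := F.x_swap hu1 hx
    rw [← hβ] at hx1
    have hkz : Cs z s (pw s k) := F.cs_pw F.cs_s
    have htu : t * u1 * t⁻¹ = pw z j * u1 := by rw [← hj]; group
    have hP : Cs z s (pw s (k + β) * pw z β) := F.cs_pwpw _ _
    calc y0 * u1 * y0⁻¹ * u1⁻¹ = t * (u * (x * u1 * x⁻¹) * u⁻¹) * t⁻¹ * u1⁻¹ := by rw [hy0]; group
      _ = t * (u * (u1 * (pw s β * pw z β)) * u⁻¹) * t⁻¹ * u1⁻¹ := by rw [hx1]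
      _ = t * ((u * u1 * u⁻¹) * (pw s β * pw z β)) * t⁻¹ * u1⁻¹ := by
          rw [show u * (u1 * (pw s β * pw z β)) * u⁻¹ = u * u1 * ((pw s β * pw z β) * u⁻¹) by group,
            ← F.comm_pwpw (F.cs_inv (F.u_cs hu)), show u * u1 * (u⁻¹ * (pw s β * pw z β)) =
              u * u1 * u⁻¹ * (pw s β * pw z β) by group]
      _ = t * (u1 * (pw s (k + β) * pw z β)) * t⁻¹ * u1⁻¹ := by
          rw [hk, pw_add F.s_sq k β]; group
      _ = (t * u1 * t⁻¹) * (pw s (k + β) * pw z β) * u1⁻¹ := by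
          rw [show t * (u1 * (pw s (k + β) * pw z β)) * t⁻¹ =
            t * u1 * ((pw s (k + β) * pw z β) * t⁻¹) by group, ← F.comm_pwpw (F.cs_inv htC)]
          group
      _ = pw z j * (u1 * (pw s (k + β) * pw z β)) * u1⁻¹ := by rw [htu]; group
      _ = pw z j * (pw s (k + β) * pw z β) := by rw [F.comm_pwpw (F.u_cs hu1)]; group
      _ = pw s (k + β) * pw z (j + β) := by
          rw [pw_add F.setup.z_sq j β, ← mul_assoc, pw_comm (c := pw z j) (F.cs_pw F.cs_z).2]; group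
  have hrel : ∀ {u x : G}, InU Q z g u → InX Q s x → ∀ y0, y0 = t * u * x → Cs z s y0 →
      (∀ a, br act y0 a = rt a) → ∀ {u1}, InU Q z g u1 → bW (pu act u1) w1 = 0 →
      bW (pu act u1) w2 = 0 → ∀ {j}, t * u1 * t⁻¹ * u1⁻¹ = pw z j →
      bW (pu act u1) (T (pu act (g⁻¹ * y0 * g))) = j + bW (pu act u1) (px pr x) := by
    intro u x hu hx y0 hy0 hy0C hb0 u1 hu1 p1 p2 j hj
    obtain ⟨i, ei⟩ := F.comm_exp hy0C hu1 (by rw [hb0, rt_of_perp p1 p2]) hbij.1 hB hspec hint
    obtain ⟨i', ei'⟩ := hcomp hu hx hu1 p1 p2 hj y0 hy0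
    have h1 : pw s (i + i') * pw z (bW (pu act u1) (T (pu act (g⁻¹ * y0 * g))) +
        (j + bW (pu act u1) (px pr x))) = 1 := by
      rw [← F.pwpw_mul, ← ei, ei', F.pwpw_mul, zmod_add_self, zmod_add_self, pw_zero, pw_zero, mul_one]
    exact zmod_eq_of_add _ _ (F.pwpw_eq_one h1).2
  obtain ⟨u, x, hu, hx, hy', hpy, ha, hv, hqa, j, hj, hjv⟩ := F.root_data hy hy2 hb htC ht2 htm hC hU
  set al := T (pu act (g⁻¹ * y * g)) with hal
  have hgy := F.cs_g_inv hy
  have hgy2 : g⁻¹ * y * g * (g⁻¹ * y * g) = 1 := by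
    rw [show g⁻¹ * y * g * (g⁻¹ * y * g) = g⁻¹ * (y * y) * g by group, hy2]; group
  have halfix : rt al = al := by rw [← hb, hal, ← hint y hy, F.par_fixed hgy hgy2]
  have heq : bW (pu act u) al = qW (px pr x) := by
    rw [hal, hrel hu hx y hy' hy hb hu ha.1 ha.2 hj, hjv, hqa, add_assoc, zmod_add_self, add_zero]
  -- the mirror
  have hmirror : ∀ {y0 : G}, Cs z s y0 → y0 * y0 = 1 → y0 ≠ 1 → (∀ a, br act y0 a = rt a) →
      OnLine (T (pu act (g⁻¹ * y0 * g))) →
      ∃ y', Cs z s y' ∧ (∀ a, br act y' a = a) ∧ y' * y' = 1 ∧ y' ≠ 1 ∧ IsConj y0 y' := by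
    intro y0 h0 h02 h01 hb0 hline
    set y1 := g⁻¹ * y0 * g with hy1'
    have h1C := F.cs_g_inv h0
    have h12 : y1 * y1 = 1 := by
      rw [hy1', show g⁻¹ * y0 * g * (g⁻¹ * y0 * g) = g⁻¹ * (y0 * y0) * g by group, h02]; group
    obtain ⟨d, hd, hdb⟩ := F.exists_standard h1C h12 (fun a => by
        rw [← hq, hadd, hint y0 h0, hb0, rt]
        rw [show T a + bW (T a) w1 • w2 + bW (T a) w2 • w1 + T a =
          (bW (T a) w1 • w2 + bW (T a) w2 • w1) + (T a + T a) by abel, vadd_self, add_zero]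
        rcases zmod_cases (bW (T a) w1) with e | e <;> rcases zmod_cases (bW (T a) w2) with e' | e' <;>
          simp [e, e', qW_zero, w_facts.2.1, w_facts.2.2.1, qW_add, bW_comm w2 w1, w_facts.1])
      (by
        obtain ⟨a, ha'⟩ := hbij.2 (Sum.elim ![0, 0, 0] ![1, 0, 0])
        refine ⟨a, fun e => rt_moves ?_⟩
        rw [← ha', ← hb0, ← hint y0 h0, e])
    set y2 := d * y1 * d⁻¹ with hy2'
    have h2C := F.cs_conj hd h1C
    have h22 : y2 * y2 = 1 := by
      rw [hy2', show d * y1 * d⁻¹ * (d * y1 * d⁻¹) = d * (y1 * y1) * d⁻¹ by group, h12]; group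
    have h21 : y2 ≠ 1 := fun e => h01 (by
      rw [show y0 = g * (d⁻¹ * y2 * d) * g⁻¹ by rw [hy2', hy1']; group, e]; group)
    have hflat : OnLine (pu act y2) := flat_param _ fun b hbb => by
      set b0 := br act d⁻¹ b with hb0'
      have hdb0 : br act d b0 = b := F.br_inv' hd b
      have hfix0 : br act y1 b0 = b0 := by
        apply bar_injective (F.fix_e0 hd)
        show br act d (br act y1 b0) = br act d b0
        rw [hdb0, ← F.br_mul hd h1C, show d * y1 = y2 * d by rw [hy2']; group, F.br_mul h2C hd, hdb0,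
          hdb, hbb]
      have hTb : rt (T b0) = T b0 := by rw [← hb0, ← hint y0 h0, ← hy1', hfix0]
      obtain ⟨p1, p2⟩ := fix_rt _ hTb
      have hz0 : bW b0 (pu act y1) = 0 := by rw [← hB]; exact onLine_perp _ hline _ p1 p2
      have e1' : app (act y1) (inj b0) = inj b0 := by
        rw [F.app_fix h1C hfix0, hz0, zero_smul, zero_add]
      have e2' := F.app_fix h2C (b := b) (by rw [hdb, hbb])
      have ed : app (act d) (inj b0) = B (app (act d) (inj b0)) e1 • e0 + inj b := by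
        conv_lhs => rw [app_inj (F.fix_e0 hd) b0]
        rw [show bar (act d) b0 = b from hdb0]
      set k := B (app (act d) (inj b0)) e1
      have e3 : app (act y2) (k • e0 + inj b) = k • e0 + inj b := by
        rw [← ed, ← app_mul, ← F.setup.act_mul _ _ h2C.1 hd.1, show y2 * d = d * y1 by rw [hy2']; group,
          F.setup.act_mul _ _ hd.1 h1C.1, app_mul, e1']
      rw [app_add, app_smul, F.fix_e0 h2C, e2'] at e3
      have := congrFun (add_left_cancel e3) (.inl 0)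
      simpa [show e0 (.inl 0) = 1 from rfl, inj_inl] using this
    obtain ⟨y', a1, a2, a3, a4, a5⟩ := F.reduce_flat h2C h22 h21 hdb hflat
    refine ⟨y', a1, a2, a3, a4, IsConj.trans (isConj_iff.2 ⟨d * g⁻¹, ?_⟩) a5⟩
    group
  rcases root_table (pu act u) ha (px pr x) hv hqa al (fix_rt _ halfix) heq with h | h | h
  · exact F.reduce_flat hy hy2 hy1 hb (by rw [hpy]; exact h)
  · exact hmirror hy hy2 hy1 hb h
  -- shift by an element of `Q`
  obtain ⟨w, hw, hpw⟩ := F.setup.pr_surj e1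
  have hwz := F.setup.comm_Q hw
  set y2 := w * y * w⁻¹ with hy2'
  have hws : w * s * w⁻¹ = s * z := F.setup.conj_eq_mul_z hw F.s_mem (by rw [hpw, F.s_pr, B_e1_e0])
  have h2C : Cs z s y2 := by
    refine ⟨F.setup.comm_conj hwz hy.1, ?_⟩
    have hs' : s = w * (s * z) * w⁻¹ := by
      rw [show w * (s * z) * w⁻¹ = (w * s * w⁻¹) * (w * z * w⁻¹) by group, hws,
        hwz, mul_inv_cancel_right, mul_assoc, F.setup.z_sq, mul_one]
    have hyz : y * (s * z) = s * z * y := by rw [← mul_assoc, hy.2, mul_assoc, hy.1, mul_assoc]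
    calc y2 * s = w * y * w⁻¹ * (w * (s * z) * w⁻¹) := by rw [← hs', hy2']
      _ = w * (y * (s * z)) * w⁻¹ := by group
      _ = w * (s * z * y) * w⁻¹ := by rw [hyz]
      _ = (w * (s * z) * w⁻¹) * (w * y * w⁻¹) := by group
      _ = s * y2 := by rw [← hs', hy2']
  set q' := y⁻¹ * y2 with hq'
  have hq'Q : q' ∈ Q := by
    rw [hq', hy2', show y⁻¹ * (w * y * w⁻¹) = y⁻¹ * w * y⁻¹⁻¹ * w⁻¹ by group]
    exact Q.mul_mem (F.setup.conj_mem (F.setup.comm_inv hy.1) hw) (Q.inv_mem hw)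
  have hq'X : InX Q s q' := ⟨hq'Q, (F.cs_mul (F.cs_inv hy) h2C).2⟩
  have hpq : px pr q' = pu act u := by
    have hyi : y⁻¹ = y := inv_eq_of_mul_eq_one_right hy2
    rw [hq', hy2', show y⁻¹ * (w * y * w⁻¹) = y⁻¹ * w * y⁻¹⁻¹ * w⁻¹ by group,
      F.px_mul (F.setup.conj_mem (F.setup.comm_inv hy.1) hw) (Q.inv_mem hw), F.px_inv hw, px, px,
      F.setup.act_pr _ (F.setup.comm_inv hy.1) w hw, hyi, hpw, pj_e1, add_zero]
    exact hpy
  have h2 : y2 = t * u * (x * q') := by rw [hq', hy']; group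
  have hb2 : ∀ a, br act y2 a = rt a := by
    intro a
    rw [show y2 = y * q' by rw [hq']; group, F.br_mul hy (F.x_cs hq'X)]
    show br act y (bar (act q') a) = _
    rw [F.setup.act_Q hq'Q, bar_one, hb]
  have h22 : y2 * y2 = 1 := by
    rw [hy2', show w * y * w⁻¹ * (w * y * w⁻¹) = w * (y * y) * w⁻¹ by group, hy2]; group
  have h21 : y2 ≠ 1 := fun e => hy1 (by rw [show y = w⁻¹ * y2 * w by rw [hy2']; group, e]; group)
  set al2 := T (pu act (g⁻¹ * y2 * g)) with hal2
  have hdiff : OnLine (al2 + (al + pu act u)) := flat_param _ fun b hbb => by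
    obtain ⟨p1, p2⟩ := fix_rt _ hbb
    obtain ⟨u1, hu1, rfl⟩ := F.exists_u b
    obtain ⟨j1, hj1⟩ := hU u1 hu1 p1 p2
    rw [bW_add_right, bW_add_right, hal2, hal,
      hrel hu (F.x_mul hx hq'X) y2 h2 h2C hb2 hu1 p1 p2 hj1,
      hrel hu hx y hy' hy hb hu1 p1 p2 hj1, F.px_mul hx.1 hq'Q, hpq, bW_add_right,
      show j1 + (bW (pu act u1) (px pr x) + bW (pu act u1) (pu act u)) +
        (j1 + bW (pu act u1) (px pr x) + bW (pu act u1) (pu act u)) =
        (j1 + bW (pu act u1) (px pr x) + bW (pu act u1) (pu act u)) +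
        (j1 + bW (pu act u1) (px pr x) + bW (pu act u1) (pu act u)) by ring, zmod_add_self]
  have hline2 : OnLine al2 := by
    have := onLine_add _ hdiff _ h
    rwa [vadd_cancel] at this
  obtain ⟨y', a1, a2, a3, a4, a5⟩ := hmirror h2C h22 h21 hb2 hline2
  exact ⟨y', a1, a2, a3, a4, IsConj.trans (isConj_iff.2 ⟨w, rfl⟩) a5⟩

/-- Every involution of the centralizer of `z` is of one of three kinds. -/
theorem classify {y : G} (hy : y * z = z * y) (hy2 : y * y = 1) (hy1 : y ≠ 1) :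
    IsConj z y ∨ (∃ y', IsPair Q z s g pr act w1 w2 y' ∧ IsConj y' y) ∨
      (∃ y', IsPair Q z s g pr act a0 b0 y' ∧ IsConj y' y) := by
  by_cases hyQ : y ∈ Q
  · exact Or.inl (F.isConj_of_mem hyQ hy2 hy1)
  have hsq := F.act_invol hy hy2
  have hne : ∃ v, app (act y) v ≠ v := by
    by_contra h
    push Not at h
    exact hyQ ((F.setup.act_ker y hy).1 (iso_ext fun v => by rw [h, app_one]))
  obtain ⟨v, hv0, hvq, hgood⟩ := exists_good_vector (F.setup.act_mem hy) hsq hne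
  obtain ⟨e, he⟩ : ∃ e, e = app (act y) v + v := ⟨_, rfl⟩
  rw [← he] at hv0 hvq hgood
  obtain ⟨f, hf, hfe⟩ := exists_move_one hvq hv0
  obtain ⟨c, hc, rfl⟩ := F.setup.exists_act hf
  set y' := c * y * c⁻¹ with hy'
  have hz' : y' * z = z * y' := F.setup.comm_conj hc hy
  have h2' : y' * y' = 1 := by
    rw [hy', show c * y * c⁻¹ * (c * y * c⁻¹) = c * (y * y) * c⁻¹ by group, hy2]; group
  have h1' : y' ≠ 1 := fun e' => hy1 (by rw [show y = c⁻¹ * y' * c by rw [hy']; group, e']; group)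
  have hact : ∀ x, app (act y') (app (act c) x) = app (act c) (app (act y) x) := by
    intro x
    rw [hy', F.setup.act_conj hc hy, app_mul, app_mul, app_inv_app]
  -- the new point is centralised
  obtain ⟨w, hw, hpw⟩ := F.setup.pr_surj (app (act c) v)
  set dd := y' * w * y' * w⁻¹ with hdd
  have hyi : y'⁻¹ = y' := inv_eq_of_mul_eq_one_right h2'
  have hddQ : dd ∈ Q := by
    rw [hdd, show y' * w * y' * w⁻¹ = y' * w * y'⁻¹ * w⁻¹ by rw [hyi]]
    exact Q.mul_mem (F.setup.conj_mem hz' hw) (Q.inv_mem hw)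
  have hpd : pr dd = e0 := by
    rw [hdd, show y' * w * y' * w⁻¹ = y' * w * y'⁻¹ * w⁻¹ by rw [hyi],
      F.setup.pr_mul _ (F.setup.conj_mem hz' hw) _ (Q.inv_mem hw), F.setup.pr_inv hw,
      F.setup.act_pr y' hz' w hw, hpw, hact, ← app_add, ← he, hfe]
  have hdd2 : dd * dd = 1 := (F.setup.pr_sq dd hddQ).1 (by rw [hpd, q_e0])
  have hys : y' * s = s * y' := by
    have h1 : y' * dd = dd⁻¹ * y' := by
      rw [hdd, show (y' * w * y' * w⁻¹)⁻¹ = w * y'⁻¹ * w⁻¹ * y'⁻¹ by group, hyi,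
        show w * y' * w⁻¹ * y' * y' = w * y' * w⁻¹ * (y' * y') by group, h2', mul_one,
        show y' * (y' * w * y' * w⁻¹) = (y' * y') * w * y' * w⁻¹ by group, h2', one_mul]
    rw [inv_eq_of_mul_eq_one_right hdd2] at h1
    rcases F.setup.pr_congr hddQ F.s_mem (hpd.trans F.s_pr.symm) with e' | e'
    · rwa [e'] at h1
    · rw [e', ← mul_assoc, mul_assoc s z y', ← hz', ← mul_assoc] at h1
      exact mul_right_cancel h1
  have hC : Cs z s y' := ⟨hz', hys⟩
  have hts : ∀ a, qW (br act y' a + a) = 0 := by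
    intro a
    obtain ⟨p, hp⟩ : ∃ p, app (act c) p = inj a := ⟨_, app_app_inv _ _⟩
    have hpe : B p e = 0 := by rw [← app_B (act c), hp, hfe, B_inj_e0]
    have h := hgood p hpe
    rw [← app_q (act c), app_add, ← hact, hp, app_inj (F.fix_e0 hC) a] at h
    rw [q, ← B_e0 (B (app (act y') (inj a)) e1 • e0 + inj (bar (act y') a) + inj a)] at h
    simpa [br, B_add_left, B_smul_left, B_self, B_inj_e0, pj_add, pj_smul, pj_e0, pj_inj] using h
  have hfin : ∀ {y'' : G}, IsConj y' y'' → Cs z s y'' → (∀ a, br act y'' a = a) →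
      y'' * y'' = 1 → y'' ≠ 1 → IsConj z y ∨ (∃ y', IsPair Q z s g pr act w1 w2 y' ∧ IsConj y' y) ∨
      (∃ y', IsPair Q z s g pr act a0 b0 y' ∧ IsConj y' y) := by
    intro y'' hcj h1 h2 h3 h4
    have hback : IsConj y'' y := (IsConj.trans (isConj_iff.2 ⟨c, rfl⟩) hcj).symm
    rcases F.classify_kernel h1 h2 h3 h4 with h | ⟨p, h, h'⟩ | ⟨p, h, h'⟩
    · exact Or.inl (h.trans hback)
    · exact Or.inr (Or.inl ⟨p, h, h'.trans hback⟩)
    · exact Or.inr (Or.inr ⟨p, h, h'.trans hback⟩)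
  by_cases htriv : ∀ a, br act y' a = a
  · exact hfin (IsConj.refl _) hC htriv h2' h1'
  push Not at htriv
  obtain ⟨d, hd, hdb⟩ := F.exists_standard hC h2' hts htriv
  obtain ⟨y'', a1, a2, a3, a4, a5⟩ := F.reduce_root (F.cs_conj hd hC)
    (by rw [show d * y' * d⁻¹ * (d * y' * d⁻¹) = d * (y' * y') * d⁻¹ by group, h2']; group)
    (fun e' => h1' (by rw [show y' = d⁻¹ * (d * y' * d⁻¹) * d by group, e']; group)) hdb
  exact hfin (IsConj.trans (isConj_iff.2 ⟨d, rfl⟩) a5) a1 a2 a3 a4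

end Frame

end CfsgLib.ConwayType59
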