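import Cfsg.Agent.ConwayType59.Main
import Cfsg.Agent.ConwayType59.Fixer

/-!
The centralizer of `z` and of a standard involution: a Sylow 2-subgroup meeting the centre of `Q` only
in `⟨z⟩`.
-/

set_option autoImplicit false
set_option synthInstance.maxSize 2000
set_option linter.unusedSectionVars false
set_option linter.unusedVariables false

namespace CfsgLib.ConwayType59

open Cfsg

variable {G : Type*} [Group G] [Finite G] {z s g : G} {Q : Subgroup G} {pr : G → V} {act : G → Iso}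

/-- The standard parameters and the data used about them. -/
structure Std (z s : G) (act : G → Iso) (a b : V6) : Prop where
  signs : ∀ i j : ZMod 2, ∃ w : V6, bW a w = i ∧ bW b w = j
  ne : a ≠ 0
  sq1 : qW a = bW a b
  sq2 : qW b = bW a b
  shift : ∃ k, Cs z s k ∧ br act k a = a ∧ br act k (a + b) = b
  fixer : Nat.card {f : Iso // ∀ v, Perp a b v → app f v = v} < 64
  perp : Fintype.card {v : V // Perp a b v} = 32

namespace Frame

variable (F : Frame z s g Q pr act)
include F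

theorem std_two : Std z s act w1 w2 := by
  refine ⟨exists_signs_two, by decide, by decide, by decide, ?_,
    lt_of_le_of_lt (card_fixer dual_two) count_two, perp_two⟩
  obtain ⟨m, ⟨hm, hm1⟩, n, ⟨hn, hn1⟩, hmn⟩ := move_second (w1 + w2) (by decide) (by decide)
    (by decide) (by decide)
  obtain ⟨k, hk, hb⟩ := F.exists_cs hm hn
  exact ⟨k, hk, by rw [hb, rfW_fix hn1, rfW_fix hm1], by rw [hb, hmn]⟩

theorem std_one : Std z s act a0 b0 := by
  refine ⟨exists_signs_one, by decide, by decide, by decide, ?_,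
    lt_of_le_of_lt (card_fixer dual_one) count_one, perp_one⟩
  obtain ⟨m, ⟨hm, hm1⟩, n, ⟨hn, hn1⟩, hmn⟩ := move_second' (a0 + b0) (by decide) (by decide)
  obtain ⟨k, hk, hb⟩ := F.exists_cs hm hn
  exact ⟨k, hk, by rw [hb, rfW_fix hn1, rfW_fix hm1], by rw [hb, hmn]⟩

theorem pair_cs {a b : V6} {y : G} (hy : IsPair Q z s g pr act a b y) : Cs z s y := by
  obtain ⟨u, x, hu, hx, -, -, rfl⟩ := hy
  exact F.cs_mul (F.u_cs hu) (F.x_cs hx)

theorem pair_act {a b : V6} {y : G} (hy : IsPair Q z s g pr act a b y) (v : V) :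
    app (act y) v = E e0 (inj a) v := by
  obtain ⟨u, x, hu, hx, rfl, -, rfl⟩ := hy
  rw [F.setup.act_mul _ _ hu.2 (F.x_cs hx).1, F.setup.act_Q hx.1, mul_one, F.act_u hu]

theorem pair_not_mem {a b : V6} (ha : a ≠ 0) {y : G} (hy : IsPair Q z s g pr act a b y) :
    y ∉ Q := by
  intro hQ
  have h := F.pair_act hy e1
  rw [F.setup.act_Q hQ, app_one] at h
  have := congrArg pj h
  rw [pj_E, pj_e1, zero_add, B_e1_e0, one_smul] at this
  exact ha this.symm

theorem pair_ne_one {a b : V6} (ha : a ≠ 0) {y : G} (hy : IsPair Q z s g pr act a b y) : y ≠ 1 :=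
  fun e => F.pair_not_mem ha hy (e ▸ Q.one_mem)

theorem perp_iff {a b : V6} {x : G} (hx : InX Q s x) :
    Perp a b (pr x) ↔ bW a (px pr x) = 0 ∧ bW b (px pr x) = 0 := by
  have h0 := F.x_perp hx
  simp only [Perp, h0, B_comm (pr x) (inj _), B_inj_left, px, true_and]

/-- The centralizer of a standard involution in `Q`. -/
theorem comm_pair_iff {a b : V6} (ha : a ≠ 0) {y : G} (hy : IsPair Q z s g pr act a b y) {x : G}
    (hx : x ∈ Q) : x * y = y * x ↔ Perp a b (pr x) := by
  constructor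
  · intro e
    have hX : InX Q s x := by
      refine F.x_of_perp hx ?_
      have hyC := F.pair_cs hy
      have h := F.setup.act_pr y hyC.1 x hx
      rw [show y * x * y⁻¹ = x by rw [← e, mul_inv_cancel_right], F.pair_act hy] at h
      have h' := congrArg pj h
      rw [pj_E] at h'
      rcases zmod_cases (B (pr x) e0) with hb | hb
      · exact hb
      · rw [hb, one_smul, left_eq_add] at h'
        exact absurd h' ha
    obtain ⟨u, x', hu, hx', rfl, rfl, rfl⟩ := hy
    have h2 := F.conj_pair hu hx' hX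
    rw [e, mul_inv_cancel_right] at h2
    obtain ⟨c1, c2⟩ := F.pwpw_eq_one (mul_left_cancel (h2.symm.trans (mul_one _).symm))
    rw [c1, zero_add] at c2
    exact (F.perp_iff hX).2 ⟨c1, c2⟩
  · intro h
    have hX := F.x_of_perp hx h.1
    obtain ⟨c1, c2⟩ := (F.perp_iff hX).1 h
    obtain ⟨u, x', hu, hx', rfl, rfl, rfl⟩ := hy
    have h2 := F.conj_pair hu hx' hX
    rw [c1, c2, add_zero, pw_zero, pw_zero, mul_one, mul_one] at h2
    exact mul_inv_eq_iff_eq_mul.1 h2

/-- An element of the centralizer moving `s` to `s * z`. -/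
theorem exists_swap {a b : V6} (hd : Std z s act a b) {y : G}
    (hy : IsPair Q z s g pr act a b y) :
    ∃ m, m * z = z * m ∧ m * y = y * m ∧ m * s * m⁻¹ = s * z := by
  obtain ⟨w, hw, hpw⟩ := F.setup.pr_surj e1
  have hwz := F.setup.comm_Q hw
  have hws : w * s * w⁻¹ = s * z := F.setup.conj_eq_mul_z hw F.s_mem (by rw [hpw, F.s_pr, B_e1_e0])
  obtain ⟨k, hk, hka, hkb⟩ := hd.shift
  have hP : IsPair Q z s g pr act a (a + b) (w * y * w⁻¹) := by
    obtain ⟨u, x, hu, hx, rfl, rfl, rfl⟩ := hy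
    set d := u⁻¹ * (w * u * w⁻¹) with hd'
    have hui := F.setup.comm_inv hu.2
    have hdX : InX Q s d := by
      refine ⟨?_, (F.cs_mul (F.cs_inv (F.u_cs hu)) ⟨F.setup.comm_conj hwz hu.2, ?_⟩).2⟩
      · rw [hd', show u⁻¹ * (w * u * w⁻¹) = u⁻¹ * w * u⁻¹⁻¹ * w⁻¹ by group]
        exact Q.mul_mem (F.setup.conj_mem hui hw) (Q.inv_mem hw)
      · have hsz : u * (s * z) = s * z * u := by
          rw [← mul_assoc, (F.u_cs hu).2, mul_assoc, hu.2, mul_assoc]
        have hs' : s = w * (s * z) * w⁻¹ := by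
          rw [show w * (s * z) * w⁻¹ = (w * s * w⁻¹) * (w * z * w⁻¹) by group, hws,
            hwz, mul_inv_cancel_right, mul_assoc, F.setup.z_sq, mul_one]
        calc w * u * w⁻¹ * s = w * u * w⁻¹ * (w * (s * z) * w⁻¹) := by rw [← hs']
          _ = w * (u * (s * z)) * w⁻¹ := by group
          _ = w * (s * z * u) * w⁻¹ := by rw [hsz]
          _ = (w * (s * z) * w⁻¹) * (w * u * w⁻¹) := by group
          _ = s * (w * u * w⁻¹) := by rw [← hs']
    have hpd : px pr d = pu act u := by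
      have hp : pu act u⁻¹ = pu act u := by
        have := F.pu_mul (F.u_inv hu) hu
        rw [inv_mul_cancel, F.pu_q Q.one_mem] at this
        exact eq_of_vadd this.symm
      rw [hd', show u⁻¹ * (w * u * w⁻¹) = u⁻¹ * w * u⁻¹⁻¹ * w⁻¹ by group,
        F.px_mul (F.setup.conj_mem hui hw) (Q.inv_mem hw), F.px_inv hw, px, px,
        F.setup.act_pr _ hui w hw, F.act_u (F.u_inv hu), hp, hpw, pj_E, pj_e1, B_e1_e0, one_smul,
        zero_add, add_zero]
    have hx' : InX Q s (w * x * w⁻¹) := by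
      refine F.x_of_perp (F.setup.conj_mem hwz hx.1) ?_
      rw [F.setup.act_pr w hwz x hx.1, F.setup.act_Q hw, app_one, F.x_perp hx]
    refine ⟨u, d * (w * x * w⁻¹), hu, F.x_mul hdX hx', rfl, ?_, by rw [hd']; group⟩
    rw [F.px_mul hdX.1 hx'.1, hpd, px, px, F.setup.act_pr w hwz x hx.1, F.setup.act_Q hw, app_one]
  have hP' := F.pair_conj hk hP
  rw [hka, hkb] at hP'
  obtain ⟨m, hm, e⟩ := F.exists_conj_pair hd.signs hP' hy
  have hmC := F.x_cs hm
  refine ⟨m * k * w, F.setup.comm_mul (F.setup.comm_mul hmC.1 hk.1) hwz,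
    mul_inv_eq_iff_eq_mul.1 ?_, ?_⟩
  · rw [show m * k * w * y * (m * k * w)⁻¹ = m * (k * (w * y * w⁻¹) * k⁻¹) * m⁻¹ by group, e]
  · have hsz : ∀ {c : G}, Cs z s c → c * (s * z) * c⁻¹ = s * z := fun {c} hc => by
      rw [← mul_assoc, hc.2, mul_assoc s, hc.1, ← mul_assoc, mul_inv_cancel_right]
    rw [show m * k * w * s * (m * k * w)⁻¹ = m * (k * (w * s * w⁻¹) * k⁻¹) * m⁻¹ by group, hws,
      hsz hk, hsz hmC]

/-- An element of the centralizer with prescribed translation. -/
theorem exists_translation {a b : V6} (hd : Std z s act a b) {y : G}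
    (hy : IsPair Q z s g pr act a b y) (v : V6) :
    ∃ m, Cs z s m ∧ m * y = y * m ∧ (∀ c, br act m c = c) ∧
      ∀ x, app (act m) x = E e0 (inj v) x := by
  obtain ⟨u, hu, hua⟩ := F.exists_u v
  have hP := F.pair_conj (F.u_cs hu) hy
  rw [F.br_u hu, F.br_u hu] at hP
  obtain ⟨m, hm, e⟩ := F.exists_conj_pair hd.signs hP hy
  have hmC := F.x_cs hm
  refine ⟨m * u, F.cs_mul hmC (F.u_cs hu), mul_inv_eq_iff_eq_mul.1 ?_, fun c => ?_, fun x => ?_⟩
  · rw [show m * u * y * (m * u)⁻¹ = m * (u * y * u⁻¹) * m⁻¹ by group, e]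
  · rw [F.br_mul hmC (F.u_cs hu), F.br_u hu, br, F.setup.act_Q hm.1, bar_one]
  · rw [F.setup.act_mul _ _ hmC.1 hu.2, F.setup.act_Q hm.1, one_mul, F.act_u hu, hua]

end Frame

end CfsgLib.ConwayType59
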