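import Cfsg.Agent.ConwayType59.Params

/-!
The involutions acting trivially on the space of dimension six: three classes.
-/

set_option autoImplicit false
set_option synthInstance.maxSize 2000
set_option linter.unusedSectionVars false
set_option linter.unusedVariables false

namespace CfsgLib.ConwayType59

open Cfsg

theorem exists_signs_two : ∀ i j : ZMod 2, ∃ w : V6, bW w1 w = i ∧ bW w2 w = j := by decide +kernel

theorem exists_signs_one : ∀ i j : ZMod 2, ∃ w : V6, bW a0 w = i ∧ bW b0 w = j := by decide +kernel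

variable {G : Type*} [Group G] [Finite G] {z s g : G} {Q : Subgroup G} {pr : G → V} {act : G → Iso}

/-- A product with given parameters. -/
def IsPair (Q : Subgroup G) (z s g : G) (pr : G → V) (act : G → Iso) (a b : V6) (y : G) : Prop :=
  ∃ u x, InU Q z g u ∧ InX Q s x ∧ pu act u = a ∧ px pr x = b ∧ y = u * x

namespace Frame

variable (F : Frame z s g Q pr act)
include F

theorem isConj_z_s : IsConj z s := isConj_iff.2 ⟨g, F.g_z⟩

theorem isConj_of_mem {y : G} (hy : y ∈ Q) (hy2 : y * y = 1) (hy1 : y ≠ 1) : IsConj z y := by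
  by_cases h : y = z
  · rw [h]
  obtain ⟨c, -, e⟩ := F.setup.transitive F.s_mem F.s_sq F.s_ne F.s_ne_z hy hy2 hy1 h
  exact F.isConj_z_s.trans (isConj_iff.2 ⟨c, e⟩)

theorem isConj_of_u {y : G} (hy : InU Q z g y) (hy2 : y * y = 1) (hy1 : y ≠ 1) : IsConj z y := by
  refine (F.isConj_of_mem hy.1 ?_ ?_).trans (isConj_iff.2 ⟨g, by group⟩)
  · rw [show g⁻¹ * y * g * (g⁻¹ * y * g) = g⁻¹ * (y * y) * g by group, hy2]; group
  · intro e; apply hy1
    rw [show y = g * (g⁻¹ * y * g) * g⁻¹ by group, e]; group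

theorem u_pw (i j : ZMod 2) : InU Q z g (pw s i * pw z j) := by
  refine ⟨?_, F.setup.comm_Q (F.pr_pw i j).1⟩
  rw [show g⁻¹ * (pw s i * pw z j) * g = (g⁻¹ * pw s i * g⁻¹⁻¹) * (g⁻¹ * pw z j * g⁻¹⁻¹) by group,
    pw_conj, pw_conj, inv_inv, F.g_inv_s, F.g_inv_z]
  exact (F.pr_pw' i j).1

theorem cs_pwpw (i j : ZMod 2) : Cs z s (pw s i * pw z j) :=
  F.cs_mul (F.cs_pw F.cs_s) (F.cs_pw F.cs_z)

theorem comm_pwpw {c : G} (hc : Cs z s c) (i j : ZMod 2) :
    c * (pw s i * pw z j) = pw s i * pw z j * c := by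
  rw [← mul_assoc, pw_comm hc.2, mul_assoc, pw_comm hc.1, mul_assoc]

theorem pwpw_mul (i j k l : ZMod 2) :
    pw s i * pw z j * (pw s k * pw z l) = pw s (i + k) * pw z (j + l) := by
  rw [pw_add F.s_sq, pw_add F.setup.z_sq]
  calc pw s i * pw z j * (pw s k * pw z l) = pw s i * (pw z j * pw s k) * pw z l := by group
    _ = pw s i * (pw s k * pw z j) * pw z l := by
      rw [pw_comm (c := pw z j) (d := s) (F.cs_pw F.cs_z).2]
    _ = _ := by group

theorem pwpw_eq_one {i j : ZMod 2} (h : pw s i * pw z j = 1) : i = 0 ∧ j = 0 := by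
  have e := (F.pr_pw i j).2
  rw [h, F.setup.pr_one] at e
  have hi := congrFun e (.inl 0)
  simp [show e0 (.inl 0) = 1 from rfl] at hi
  refine ⟨hi.symm, ?_⟩
  rw [← hi] at h
  rcases zmod_cases j with rfl | rfl
  · rfl
  · simp [pw_zero, pw_one] at h
    exact absurd h F.setup.z_ne

theorem pw_sz (k : ZMod 2) : pw (s * z) k = pw s k * pw z k := pw_mul k

/-- Conjugation by an element of `Q` centralizing `s`. -/
theorem conj_pair {u x w : G} (hu : InU Q z g u) (hx : InX Q s x) (hw : InX Q s w) :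
    w * (u * x) * w⁻¹ = u * x *
      (pw s (bW (pu act u) (px pr w)) *
        pw z (bW (pu act u) (px pr w) + bW (px pr x) (px pr w))) := by
  set i := bW (pu act u) (px pr w) with hi
  set j := bW (px pr x) (px pr w) with hj
  have h1 : w * u * w⁻¹ = u * (pw s i * pw z i) := by
    have e := F.comm_ux (F.u_inv hu) hw
    have hp : pu act u⁻¹ = pu act u := by
      have := F.pu_mul (F.u_inv hu) hu
      rw [inv_mul_cancel, F.pu_q Q.one_mem] at this
      exact eq_of_vadd this.symm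
    rw [hp, inv_inv, F.pw_sz, ← hi] at e
    rw [← e]; group
  have h2 : w * x * w⁻¹ = x * pw z j := by
    have hB : B (pr x) (pr w) = j := by
      rw [hj, F.pr_eq hx, F.pr_eq hw]
      simp only [B_add_left, B_add_right, B_smul_left, B_smul_right, B_self, B_inj_e0,
        B_comm e0 (inj _), B_inj, mul_zero, add_zero, zero_add]
    rcases F.setup.skew hw.1 hx.1 with ⟨e1, e2⟩ | ⟨e1, e2⟩ <;> rw [B_comm, hB] at e1 <;> rw [e1]
    · rw [pw_zero, mul_one, e2, mul_inv_cancel_right]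
    · rw [pw_one]
      exact F.setup.conj_eq_mul_z hw.1 hx.1 (by rw [B_comm, hB, e1])
  calc w * (u * x) * w⁻¹ = (w * u * w⁻¹) * (w * x * w⁻¹) := by group
    _ = u * ((pw s i * pw z i) * x) * pw z j := by rw [h1, h2]; group
    _ = u * (x * (pw s i * pw z i)) * pw z j := by rw [F.comm_pwpw (F.x_cs hx)]
    _ = u * x * (pw s i * (pw z i * pw z j)) := by group
    _ = _ := by rw [← pw_add F.setup.z_sq]

/-- Two products with the same parameters are conjugate under the elements of `Q` centralizing `s`. -/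
theorem exists_conj_pair {a b : V6} (hsg : ∀ i j : ZMod 2, ∃ w : V6, bW a w = i ∧ bW b w = j)
    {y y' : G} (hy : IsPair Q z s g pr act a b y) (hy' : IsPair Q z s g pr act a b y') :
    ∃ m, InX Q s m ∧ m * y * m⁻¹ = y' := by
  obtain ⟨u, x, hu, hx, hua, hxb, rfl⟩ := hy
  obtain ⟨u', x', hu', hx', hua', hxb', rfl⟩ := hy'
  obtain ⟨i, j, e⟩ := F.pu_zero (F.u_mul (F.u_inv hu) hu') (by
    rw [F.pu_mul (F.u_inv hu) hu', hua',
      show pu act u⁻¹ = a by
        have := F.pu_mul (F.u_inv hu) hu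
        rw [inv_mul_cancel, F.pu_q Q.one_mem, hua] at this
        exact eq_of_vadd this.symm, vadd_self])
  obtain ⟨k, l, e'⟩ := F.px_eq_zero (F.x_mul (F.x_inv hx) hx') (by
    rw [F.px_mul (F.x_inv hx).1 hx'.1, F.px_inv hx.1, hxb, hxb', vadd_self])
  obtain ⟨w, hwa, hwb⟩ := hsg (i + k) (i + k + (j + l))
  obtain ⟨m, hm, rfl⟩ := F.exists_x w
  refine ⟨m, hm, ?_⟩
  rw [F.conj_pair hu hx hm, hua, hxb, hwa, hwb, ← add_assoc, zmod_add_self, zero_add, ← F.pwpw_mul]
  calc u * x * (pw s i * pw z j * (pw s k * pw z l))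
      = u * (x * (pw s i * pw z j)) * (pw s k * pw z l) := by group
    _ = (u * (pw s i * pw z j)) * (x * (pw s k * pw z l)) := by
      rw [F.comm_pwpw (F.x_cs hx)]; group
    _ = u' * x' := by rw [← e, ← e']; group

/-- Two products with the same parameters are conjugate. -/
theorem isConj_pair {a b : V6} (hsg : ∀ i j : ZMod 2, ∃ w : V6, bW a w = i ∧ bW b w = j)
    {y y' : G} (hy : IsPair Q z s g pr act a b y) (hy' : IsPair Q z s g pr act a b y') :
    IsConj y y' := by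
  obtain ⟨m, -, e⟩ := F.exists_conj_pair hsg hy hy'
  exact isConj_iff.2 ⟨m, e⟩

theorem pair_conj {a b : V6} {c y : G} (hc : Cs z s c) (hy : IsPair Q z s g pr act a b y) :
    IsPair Q z s g pr act (br act c a) (br act c b) (c * y * c⁻¹) := by
  obtain ⟨u, x, hu, hx, rfl, rfl, rfl⟩ := hy
  exact ⟨c * u * c⁻¹, c * x * c⁻¹, F.u_conj hc hu, F.x_conj hc hx, F.pu_conj hc hu, F.px_conj hc hx,
    by group⟩

theorem exists_pair (a b : V6) : ∃ y, IsPair Q z s g pr act a b y := by
  obtain ⟨u, hu, hua⟩ := F.exists_u a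
  obtain ⟨x, hx, hxb⟩ := F.exists_x b
  exact ⟨u * x, u, x, hu, hx, hua, hxb, rfl⟩

/-- The square of a product. -/
theorem sq_pair {u x : G} (hu : InU Q z g u) (hx : InX Q s x) :
    u * x * (u * x) = pw s (qW (pu act u) + bW (pu act u) (px pr x)) *
      pw z (qW (px pr x) + bW (pu act u) (px pr x)) := by
  set k := bW (pu act u) (px pr x) with hk
  have e := F.comm_ux hu hx
  rw [F.pw_sz, ← hk] at e
  have hxu : x * u = pw s k * pw z k * (u * x) := by
    have e' : u * x = pw s k * pw z k * (x * u) := by rw [← e]; group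
    rw [e', ← mul_assoc, F.pwpw_mul, zmod_add_self, pw_zero, pw_zero, one_mul, one_mul]
  calc u * x * (u * x) = u * (x * u) * x := by group
    _ = (u * (pw s k * pw z k)) * (u * x) * x := by rw [hxu]; group
    _ = (pw s k * pw z k) * ((u * u) * (x * x)) := by rw [F.comm_pwpw (F.u_cs hu)]; group
    _ = _ := by rw [F.sq_u hu, F.sq_x hx, F.pwpw_mul, add_comm k, add_comm k]

theorem exists_decomp {y : G} (hy : Cs z s y) (hb : ∀ a, br act y a = a) :
    ∃ u x, InU Q z g u ∧ InX Q s x ∧ y = u * x := by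
  obtain ⟨u, hu, hua⟩ := F.exists_u (par (act y))
  have hQ : u⁻¹ * y ∈ Q := by
    refine (F.setup.act_ker _ (F.setup.comm_mul (F.setup.comm_inv hu.2) hy.1)).1 ?_
    rw [F.setup.act_mul _ _ (F.setup.comm_inv hu.2) hy.1, F.setup.act_inv hu.2, inv_mul_eq_one]
    exact iso_ext fun v => by rw [F.act_u hu, hua, eq_E (F.fix_e0 hy) hb]
  exact ⟨u, u⁻¹ * y, hu, ⟨hQ, (F.cs_mul (F.cs_inv (F.u_cs hu)) hy).2⟩, by group⟩

/-- The involutions acting trivially in dimension six. -/
theorem classify_kernel {y : G} (hy : Cs z s y) (hb : ∀ a, br act y a = a) (hy2 : y * y = 1)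
    (hy1 : y ≠ 1) :
    IsConj z y ∨ (∃ y', IsPair Q z s g pr act w1 w2 y' ∧ IsConj y' y) ∨
      (∃ y', IsPair Q z s g pr act a0 b0 y' ∧ IsConj y' y) := by
  obtain ⟨u, x, hu, hx, rfl⟩ := F.exists_decomp hy hb
  rw [F.sq_pair hu hx] at hy2
  obtain ⟨h1, h2⟩ := F.pwpw_eq_one hy2
  set a := pu act u with ha
  set b := px pr x with hb'
  have hsq : u * x * (u * x) = 1 := by rw [F.sq_pair hu hx]; exact hy2
  have hqb : qW b = qW a := by
    rw [zmod_eq_of_add _ _ h2, zmod_eq_of_add _ _ h1]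
  by_cases ha0 : a = 0
  · left
    obtain ⟨i, j, e⟩ := F.pu_zero hu ha0
    exact F.isConj_of_mem (Q.mul_mem (by rw [e]; exact (F.pr_pw i j).1) hx.1) hsq hy1
  by_cases hb0 : b = 0
  · left
    obtain ⟨i, j, e⟩ := F.px_eq_zero hx hb0
    exact F.isConj_of_u (F.u_mul hu (by rw [e]; exact F.u_pw i j)) hsq hy1
  have hmove : ∀ {a' b' c : _}, Cs z s c → br act c a = a' → br act c b = b' →
      ∃ y', IsPair Q z s g pr act a' b' y' ∧ IsConj y' (u * x) := by
    intro a' b' c hc e1 e2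
    refine ⟨c * (u * x) * c⁻¹, ?_, (isConj_iff.2 ⟨c, rfl⟩).symm⟩
    rw [← e1, ← e2]
    exact F.pair_conj hc ⟨u, x, hu, hx, rfl, rfl, rfl⟩
  rcases zmod_cases (qW a) with hqa | hqa
  · rw [hqa] at h1 hqb
    rw [zero_add] at h1
    by_cases hab : b = a
    · left
      obtain ⟨w, hw, hpw⟩ := F.setup.pr_surj e1
      have hwz := F.setup.comm_Q hw
      have hws : w * s * w⁻¹ = s * z := F.setup.conj_eq_mul_z hw F.s_mem (by
        rw [hpw, F.s_pr, B_e1_e0])
      have hXw : InX Q s (u⁻¹ * (w * u * w⁻¹)) := by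
        refine ⟨?_, (F.cs_mul (F.cs_inv (F.u_cs hu)) ⟨F.setup.comm_conj hwz hu.2, ?_⟩).2⟩
        · rw [show u⁻¹ * (w * u * w⁻¹) = u⁻¹ * w * u⁻¹⁻¹ * w⁻¹ by group]
          exact Q.mul_mem (F.setup.conj_mem (F.setup.comm_inv hu.2) hw) (Q.inv_mem hw)
        · have hsz : u * (s * z) = s * z * u := by
            rw [← mul_assoc, (F.u_cs hu).2, mul_assoc, hu.2, mul_assoc]
          have hs' : s = w * (s * z) * w⁻¹ := by
            rw [show w * (s * z) * w⁻¹ = (w * s * w⁻¹) * (w * z * w⁻¹) by group, hws,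
              hwz, mul_inv_cancel_right, mul_assoc, F.setup.z_sq, mul_one]
          calc w * u * w⁻¹ * s = w * u * w⁻¹ * (w * (s * z) * w⁻¹) := by rw [← hs']
            _ = w * (u * (s * z)) * w⁻¹ := by group
            _ = w * (s * z * u) * w⁻¹ := by rw [hsz]
            _ = (w * (s * z) * w⁻¹) * (w * u * w⁻¹) := by group
            _ = s * (w * u * w⁻¹) := by rw [← hs']
      have hpx : px pr (u⁻¹ * (w * u * w⁻¹)) = a := by
        have hui := F.setup.comm_inv hu.2
        have hui' : InU Q z g u⁻¹ := F.u_inv hu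
        have hp : pu act u⁻¹ = a := by
          have := F.pu_mul hui' hu
          rw [inv_mul_cancel, F.pu_q Q.one_mem] at this
          exact eq_of_vadd this.symm
        rw [show u⁻¹ * (w * u * w⁻¹) = u⁻¹ * w * u⁻¹⁻¹ * w⁻¹ by group,
          F.px_mul (F.setup.conj_mem hui hw) (Q.inv_mem hw), F.px_inv hw, px, px,
          F.setup.act_pr _ hui w hw, F.act_u hui', hp, hpw, pj_E, pj_e1, B_e1_e0, one_smul,
          zero_add, add_zero]
      obtain ⟨i, j, e⟩ := F.px_eq_zero (F.x_mul (F.x_inv hXw) hx) (by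
        rw [F.px_mul (F.x_inv hXw).1 hx.1, F.px_inv hXw.1, hpx, ← hb', hab, vadd_self])
      have heq : u * x = w * (u * (pw s i * pw z (i + j))) * w⁻¹ := by
        have hwd : w⁻¹ * (pw s i * pw z j) * w⁻¹⁻¹ = pw s i * pw z (i + j) := by
          have hwi : w⁻¹ * s * w⁻¹⁻¹ = s * z := by
            refine F.setup.conj_eq_mul_z (Q.inv_mem hw) F.s_mem ?_
            rw [F.setup.pr_inv hw, hpw, F.s_pr, B_e1_e0]
          rw [show w⁻¹ * (pw s i * pw z j) * w⁻¹⁻¹ =
            (w⁻¹ * pw s i * w⁻¹⁻¹) * (w⁻¹ * pw z j * w⁻¹⁻¹) by group, pw_conj, pw_conj, hwi,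
            F.setup.comm_inv hwz, mul_inv_cancel_right, F.pw_sz, mul_assoc, ← pw_add F.setup.z_sq]
        rw [← hwd, show x = u⁻¹ * (w * u * w⁻¹) * (pw s i * pw z j) by rw [← e]; group]
        group
      rw [heq] at hsq hy1 ⊢
      set y0 := u * (pw s i * pw z (i + j)) with hy0
      refine (F.isConj_of_u (F.u_mul hu (F.u_pw _ _)) ?_ ?_).trans (isConj_iff.2 ⟨w, rfl⟩)
      · rw [show y0 * y0 = w⁻¹ * (w * y0 * w⁻¹ * (w * y0 * w⁻¹)) * w by group, hsq]; group
      · intro e'; exact hy1 (by rw [hy0, e']; group)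
    · right; left
      obtain ⟨c, hc, hca⟩ := F.exists_to_w1 hqa ha0
      obtain ⟨m, ⟨hm, hm1⟩, n, ⟨hn, hn1⟩, hmn⟩ := move_second (br act c b)
        (by rw [F.br_q hc, hqb]) (by rw [bW_comm, ← hca, F.br_B hc, h1])
        (fun e => hb0 (bar_injective (F.fix_e0 hc) (e.trans (bar_zero _).symm)))
        (fun e => hab (bar_injective (F.fix_e0 hc) (e.trans hca.symm)))
      obtain ⟨d, hd, hdb⟩ := F.exists_cs hm hn
      exact hmove (F.cs_mul hd hc) (by rw [F.br_mul hd hc, hca, hdb, rfW_fix hn1, rfW_fix hm1])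
        (by rw [F.br_mul hd hc, hdb, hmn])
  · right; right
    rw [hqa] at h1 hqb
    have hB : bW a b = 1 := (zmod_eq_of_add _ _ h1).symm
    obtain ⟨m, hm, n, hn, hmn⟩ := move_nonsingular a hqa
    obtain ⟨c, hc, hcb⟩ := F.exists_cs hm hn
    have hca : br act c a = a0 := by rw [hcb, hmn]
    obtain ⟨m', ⟨hm', hm1⟩, n', ⟨hn', hn1⟩, hmn'⟩ := move_second' (br act c b)
      (by rw [F.br_q hc, hqb]) (by rw [bW_comm, ← hca, F.br_B hc, hB])
    obtain ⟨d, hd, hdb⟩ := F.exists_cs hm' hn'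
    exact hmove (F.cs_mul hd hc) (by rw [F.br_mul hd hc, hca, hdb, rfW_fix hn1, rfW_fix hm1])
      (by rw [F.br_mul hd hc, hdb, hmn'])

/-- The standard representatives are involutions. -/
theorem pair_sq {a b : V6} (h1 : qW a = bW a b) (h2 : qW b = bW a b) {y : G}
    (hy : IsPair Q z s g pr act a b y) : y * y = 1 := by
  obtain ⟨u, x, hu, hx, rfl, rfl, rfl⟩ := hy
  rw [F.sq_pair hu hx, h1, h2, zmod_add_self, pw_zero, pw_zero, one_mul]

end Frame

end CfsgLib.ConwayType59
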