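import Cfsg.Agent.ConwayType59.Frame

/-!
The parameters of the two extraspecial subgroups meeting in the centralizer of `z` and `s`: squares
and commutators.
-/

set_option autoImplicit false
set_option synthInstance.maxSize 2000
set_option linter.unusedSectionVars false
set_option linter.unusedVariables false

namespace CfsgLib.ConwayType59

open Cfsg

theorem exists_sum_singular : ∀ a : V6, qW a = 1 →
    ∃ b : V6, qW b = 0 ∧ qW (a + b) = 0 := by decide +kernel

/-- The third standard singular vector. -/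
def w3 : V6 := Sum.elim ![0, 0, 1] ![0, 0, 0]

theorem plane_facts :
    qW w1 = 0 ∧ qW w2 = 0 ∧ qW w3 = 0 ∧ qW (w1 + w2) = 0 ∧ qW (w1 + w3) = 0 ∧ qW (w2 + w3) = 0 ∧
    qW (w1 + (w2 + w3)) = 0 ∧ w1 ≠ 0 ∧ w2 ≠ 0 ∧ w3 ≠ 0 ∧ w1 + w2 ≠ 0 ∧ w1 + w3 ≠ 0 ∧
    w2 + w3 ≠ 0 ∧ w1 + (w2 + w3) ≠ 0 := by decide +kernel

/-- The power with exponent modulo two. -/
def pw {G : Type*} [Group G] (d : G) (i : ZMod 2) : G := if i = 0 then 1 else d

section pw

variable {G : Type*} [Group G]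

theorem pw_zero (d : G) : pw d 0 = 1 := rfl
theorem pw_one (d : G) : pw d 1 = d := rfl

theorem pw_add {d : G} (hd : d * d = 1) (i j : ZMod 2) : pw d (i + j) = pw d i * pw d j := by
  rcases zmod_cases i with rfl | rfl <;> rcases zmod_cases j with rfl | rfl <;>
    simp [pw_zero, pw_one, zmod_add_self, hd]

theorem pw_conj (k d : G) (i : ZMod 2) : k * pw d i * k⁻¹ = pw (k * d * k⁻¹) i := by
  rcases zmod_cases i with rfl | rfl <;> simp [pw_zero, pw_one]

theorem pw_mul {d e : G} (i : ZMod 2) : pw (d * e) i = pw d i * pw e i := by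
  rcases zmod_cases i with rfl | rfl <;> simp [pw_zero, pw_one]

theorem pw_comm {c d : G} (h : c * d = d * c) (i : ZMod 2) : c * pw d i = pw d i * c := by
  rcases zmod_cases i with rfl | rfl <;> simp [pw_zero, pw_one, h]

theorem pw_sq {d : G} (hd : d * d = 1) (i : ZMod 2) : pw d i * pw d i = 1 := by
  rw [← pw_add hd, zmod_add_self, pw_zero]

end pw

variable {G : Type*} [Group G] [Finite G] {z s g : G} {Q : Subgroup G} {pr : G → V} {act : G → Iso}

/-- The centralizer of both involutions. -/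
def Cs (z s c : G) : Prop := c * z = z * c ∧ c * s = s * c

/-- The elements of `Q` centralizing `s`. -/
def InX (Q : Subgroup G) (s x : G) : Prop := x ∈ Q ∧ x * s = s * x

/-- The elements of the extraspecial subgroup of `s` centralizing `z`. -/
def InU (Q : Subgroup G) (z g u : G) : Prop := g⁻¹ * u * g ∈ Q ∧ u * z = z * u

/-- The parameter of an element of `Q`. -/
def px (pr : G → V) (x : G) : V6 := pj (pr x)

/-- The parameter of an element of the extraspecial subgroup of `s`. -/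
def pu (act : G → Iso) (u : G) : V6 := par (act u)

/-- The map induced on the space of dimension six. -/
def br (act : G → Iso) (c : G) (a : V6) : V6 := bar (act c) a

namespace Frame

variable (F : Frame z s g Q pr act)
include F

theorem g_inv_z : g⁻¹ * z * g = s := by rw [← F.g_s]; group

theorem g_inv_s : g⁻¹ * s * g = z := by rw [← F.g_z]; group

theorem s_sq : s * s = 1 := (F.setup.pr_sq s F.s_mem).1 (by rw [F.s_pr, q_e0])

theorem s_z : s * z = z * s := F.setup.comm_Q F.s_mem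

theorem s_ne : s ≠ 1 := fun e => e0_ne (by rw [← F.s_pr, e, F.setup.pr_one])

theorem s_ne_z : s ≠ z := fun e => e0_ne (by rw [← F.s_pr, e, F.setup.pr_z])

theorem sz_sq : s * z * (s * z) = 1 := by
  calc s * z * (s * z) = s * (z * s) * z := by group
    _ = (s * s) * (z * z) := by rw [← F.s_z]; group
    _ = 1 := by rw [F.s_sq, F.setup.z_sq, mul_one]

theorem cs_z : Cs z s z := ⟨rfl, F.s_z.symm⟩

theorem cs_s : Cs z s s := ⟨F.s_z, rfl⟩

theorem cs_one : Cs z s 1 := ⟨by simp, by simp⟩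

theorem cs_mul {c d : G} (hc : Cs z s c) (hd : Cs z s d) : Cs z s (c * d) :=
  ⟨F.setup.comm_mul hc.1 hd.1,
    (Commute.mul_left (show Commute c s from hc.2) (show Commute d s from hd.2)).eq⟩

theorem cs_inv {c : G} (hc : Cs z s c) : Cs z s c⁻¹ :=
  ⟨F.setup.comm_inv hc.1, (Commute.inv_left (show Commute c s from hc.2)).eq⟩

theorem cs_pw {i : ZMod 2} {d : G} (hd : Cs z s d) : Cs z s (pw d i) := by
  rcases zmod_cases i with rfl | rfl
  · exact F.cs_one
  · exact hd

theorem cs_conj {c d : G} (hc : Cs z s c) (hd : Cs z s d) : Cs z s (c * d * c⁻¹) :=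
  F.cs_mul (F.cs_mul hc hd) (F.cs_inv hc)

theorem cs_g {c : G} (hc : Cs z s c) : Cs z s (g * c * g⁻¹) := by
  constructor
  · rw [← F.g_s, show g * c * g⁻¹ * (g * s * g⁻¹) = g * (c * s) * g⁻¹ by group, hc.2]; group
  · rw [← F.g_z, show g * c * g⁻¹ * (g * z * g⁻¹) = g * (c * z) * g⁻¹ by group, hc.1]; group

theorem cs_g_inv {c : G} (hc : Cs z s c) : Cs z s (g⁻¹ * c * g) := by
  constructor
  · rw [← F.g_inv_s, show g⁻¹ * c * g * (g⁻¹ * s * g) = g⁻¹ * (c * s) * g by group, hc.2]; group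
  · rw [← F.g_inv_z, show g⁻¹ * c * g * (g⁻¹ * z * g) = g⁻¹ * (c * z) * g by group, hc.1]; group

theorem cs_gg : Cs z s (g * g) := by
  constructor
  · calc g * g * z = g * (g * z * g⁻¹) * g := by group
      _ = (g * s * g⁻¹) * (g * g) := by rw [F.g_z]; group
      _ = z * (g * g) := by rw [F.g_s]
  · calc g * g * s = g * (g * s * g⁻¹) * g := by group
      _ = (g * z * g⁻¹) * (g * g) := by rw [F.g_s]; group
      _ = s * (g * g) := by rw [F.g_z]

theorem fix_e0 {c : G} (hc : Cs z s c) : app (act c) e0 = e0 := by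
  rw [← F.s_pr, ← F.setup.act_pr c hc.1 s F.s_mem, mul_inv_eq_iff_eq_mul.2 hc.2]

theorem br_mul {c d : G} (hc : Cs z s c) (hd : Cs z s d) (a : V6) :
    br act (c * d) a = br act c (br act d a) := by
  rw [br, F.setup.act_mul _ _ hc.1 hd.1, bar_mul (F.fix_e0 hc) (F.fix_e0 hd)]; rfl

theorem br_inv {c : G} (hc : Cs z s c) (a : V6) : br act c⁻¹ (br act c a) = a := by
  rw [← F.br_mul (F.cs_inv hc) hc, inv_mul_cancel, br, F.setup.act_one, bar_one]

theorem br_inv' {c : G} (hc : Cs z s c) (a : V6) : br act c (br act c⁻¹ a) = a := by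
  rw [← F.br_mul hc (F.cs_inv hc), mul_inv_cancel, br, F.setup.act_one, bar_one]

theorem br_q {c : G} (hc : Cs z s c) (a : V6) : qW (br act c a) = qW a := bar_q (F.fix_e0 hc) a

theorem br_B {c : G} (hc : Cs z s c) (a b : V6) : bW (br act c a) (br act c b) = bW a b :=
  bar_B (F.fix_e0 hc) a b

theorem conj_s {c : G} (hc : c * z = z * c) (he : app (act c) e0 = e0) :
    c * s * c⁻¹ = s ∨ c * s * c⁻¹ = s * z :=
  F.setup.pr_congr (F.setup.conj_mem hc F.s_mem) F.s_mem
    (by rw [F.setup.act_pr c hc s F.s_mem, F.s_pr, he])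

theorem exists_act_fix {f : Iso} (hf : f ∈ Omega (ZMod 2) Q8) (he : app f e0 = e0) :
    ∃ c, Cs z s c ∧ act c = f := by
  obtain ⟨c, hc, rfl⟩ := F.setup.exists_act hf
  rcases F.conj_s hc he with e | e
  · exact ⟨c, ⟨hc, mul_inv_eq_iff_eq_mul.1 e⟩, rfl⟩
  · obtain ⟨y, hy, hy'⟩ := F.setup.conj_move F.s_mem (by rw [F.s_pr]; exact e0_ne)
    refine ⟨y * c, ⟨F.setup.comm_mul (F.setup.comm_Q hy) hc, mul_inv_eq_iff_eq_mul.1 ?_⟩, ?_⟩
    · calc y * c * s * (y * c)⁻¹ = y * (c * s * c⁻¹) * y⁻¹ := by group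
        _ = y * s * y⁻¹ * (y * z * y⁻¹) := by rw [e]; group
        _ = s := by
          rw [hy', F.setup.comm_Q hy, mul_inv_cancel_right, mul_assoc, F.setup.z_sq, mul_one]
    · rw [F.setup.act_mul _ _ (F.setup.comm_Q hy) hc, F.setup.act_Q hy, one_mul]

theorem exists_cs {m n : V6} (hm : qW m = 1) (hn : qW n = 1) :
    ∃ c, Cs z s c ∧ ∀ a, br act c a = rfW m (rfW n a) := by
  obtain ⟨f, hf, h0, hb⟩ := exists_pair_map hm hn
  obtain ⟨c, hc, rfl⟩ := F.exists_act_fix hf h0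
  exact ⟨c, hc, hb⟩

theorem exists_to_w1 {a : V6} (hq : qW a = 0) (ha : a ≠ 0) :
    ∃ c, Cs z s c ∧ br act c a = w1 := by
  obtain ⟨m, hm, n, hn, e⟩ := move_singular a hq ha
  obtain ⟨c, hc, hb⟩ := F.exists_cs hm hn
  exact ⟨c, hc, by rw [hb, e]⟩

theorem exists_between {a b : V6} (hq : qW a = 0) (ha : a ≠ 0) (hq' : qW b = 0) (hb : b ≠ 0) :
    ∃ c, Cs z s c ∧ br act c a = b := by
  obtain ⟨c, hc, e⟩ := F.exists_to_w1 hq ha
  obtain ⟨d, hd, e'⟩ := F.exists_to_w1 hq' hb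
  exact ⟨d⁻¹ * c, F.cs_mul (F.cs_inv hd) hc, by
    rw [F.br_mul (F.cs_inv hd) hc, e, ← e', F.br_inv hd]⟩

/-! ### The subgroup inside `Q`. -/

theorem x_cs {x : G} (hx : InX Q s x) : Cs z s x := ⟨F.setup.comm_Q hx.1, hx.2⟩

theorem u_cs {u : G} (hu : InU Q z g u) : Cs z s u := by
  refine ⟨hu.2, ?_⟩
  have := F.setup.comm_Q hu.1
  calc u * s = g * (g⁻¹ * u * g * (g⁻¹ * s * g)) * g⁻¹ := by group
    _ = g * (z * (g⁻¹ * u * g)) * g⁻¹ := by rw [F.g_inv_s, this]
    _ = s * u := by rw [← F.g_z]; group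

theorem x_mul {x y : G} (hx : InX Q s x) (hy : InX Q s y) : InX Q s (x * y) :=
  ⟨Q.mul_mem hx.1 hy.1, (F.cs_mul (F.x_cs hx) (F.x_cs hy)).2⟩

theorem x_inv {x : G} (hx : InX Q s x) : InX Q s x⁻¹ :=
  ⟨Q.inv_mem hx.1, (F.cs_inv (F.x_cs hx)).2⟩

theorem x_z : InX Q s z := ⟨F.setup.z_mem, F.s_z.symm⟩

theorem x_s : InX Q s s := ⟨F.s_mem, rfl⟩

theorem x_conj {c x : G} (hc : Cs z s c) (hx : InX Q s x) : InX Q s (c * x * c⁻¹) :=
  ⟨F.setup.conj_mem hc.1 hx.1, (F.cs_conj hc (F.x_cs hx)).2⟩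

theorem x_perp {x : G} (hx : InX Q s x) : B (pr x) e0 = 0 := by
  rw [← F.s_pr]; exact F.setup.B_of_commute hx.1 F.s_mem hx.2

theorem x_of_perp {x : G} (hx : x ∈ Q) (h : B (pr x) e0 = 0) : InX Q s x :=
  ⟨hx, F.setup.commute_of hx F.s_mem (by rw [F.s_pr]; exact h)⟩

theorem px_mul {x y : G} (hx : x ∈ Q) (hy : y ∈ Q) : px pr (x * y) = px pr x + px pr y := by
  rw [px, F.setup.pr_mul _ hx _ hy, pj_add]; rfl

theorem px_inv {x : G} (hx : x ∈ Q) : px pr x⁻¹ = px pr x := by rw [px, F.setup.pr_inv hx]; rfl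

theorem px_conj {c x : G} (hc : Cs z s c) (hx : InX Q s x) :
    px pr (c * x * c⁻¹) = br act c (px pr x) := by
  rw [px, F.setup.act_pr c hc.1 x hx.1, pj_app (F.fix_e0 hc) (F.x_perp hx)]; rfl

theorem exists_x (a : V6) : ∃ x, InX Q s x ∧ px pr x = a := by
  obtain ⟨x, hx, e⟩ := F.setup.pr_surj (inj a)
  exact ⟨x, F.x_of_perp hx (by rw [e, B_inj_e0]), by rw [px, e, pj_inj]⟩

theorem pr_eq {x : G} (hx : InX Q s x) : pr x = pr x (.inl 0) • e0 + inj (px pr x) := by
  conv_lhs => rw [decomp (pr x), ← B_e0 (pr x), F.x_perp hx, zero_smul, add_zero]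
  rfl

theorem sq_x {x : G} (hx : InX Q s x) : x * x = pw z (qW (px pr x)) := by
  have hq : q (pr x) = qW (px pr x) := by
    rw [q, ← B_e0 (pr x), F.x_perp hx, mul_zero, zero_add]; rfl
  rcases zmod_cases (qW (px pr x)) with e | e <;> rw [e] at hq ⊢
  · exact (F.setup.pr_sq x hx.1).1 hq
  · exact F.setup.sq_eq_z hx.1 hq

theorem px_eq_zero {x : G} (hx : InX Q s x) (h : px pr x = 0) :
    ∃ i j : ZMod 2, x = pw s i * pw z j := by
  have e := F.pr_eq hx
  rw [h, inj_zero, add_zero] at e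
  rcases zmod_cases (pr x (.inl 0)) with c | c <;> rw [c] at e
  · rw [zero_smul] at e
    rcases (F.setup.pr_zero x hx.1).1 e with e' | e'
    · exact ⟨0, 0, by simp [pw_zero, e']⟩
    · exact ⟨0, 1, by simp [pw_zero, pw_one, e']⟩
  · rw [one_smul, ← F.s_pr] at e
    rcases F.setup.pr_congr hx.1 F.s_mem e with e' | e'
    · exact ⟨1, 0, by simp [pw_zero, pw_one, e']⟩
    · exact ⟨1, 1, by simp [pw_one, e']⟩

/-! ### The subgroup of `s`. -/

theorem u_mul {u v : G} (hu : InU Q z g u) (hv : InU Q z g v) : InU Q z g (u * v) := by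
  refine ⟨?_, F.setup.comm_mul hu.2 hv.2⟩
  rw [show g⁻¹ * (u * v) * g = (g⁻¹ * u * g) * (g⁻¹ * v * g) by group]
  exact Q.mul_mem hu.1 hv.1

theorem u_inv {u : G} (hu : InU Q z g u) : InU Q z g u⁻¹ := by
  refine ⟨?_, F.setup.comm_inv hu.2⟩
  rw [show g⁻¹ * u⁻¹ * g = (g⁻¹ * u * g)⁻¹ by group]
  exact Q.inv_mem hu.1

theorem x_back {u : G} (hu : InU Q z g u) : InX Q s (g⁻¹ * u * g) :=
  ⟨hu.1, (F.cs_g_inv (F.u_cs hu)).2⟩

theorem u_of_x {x : G} (hx : InX Q s x) : InU Q z g (g * x * g⁻¹) :=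
  ⟨by rw [show g⁻¹ * (g * x * g⁻¹) * g = x by group]; exact hx.1, (F.cs_g (F.x_cs hx)).1⟩

theorem u_of_x_inv {x : G} (hx : InX Q s x) : InU Q z g (g⁻¹ * x * g) := by
  refine ⟨?_, (F.cs_g_inv (F.x_cs hx)).1⟩
  have := F.setup.conj_mem (F.cs_inv F.cs_gg).1 hx.1
  rwa [show (g * g)⁻¹ * x * (g * g)⁻¹⁻¹ = g⁻¹ * (g⁻¹ * x * g) * g by
    simp [mul_inv_rev, mul_assoc]] at this

theorem u_conj {c u : G} (hc : Cs z s c) (hu : InU Q z g u) : InU Q z g (c * u * c⁻¹) := by
  refine ⟨?_, F.setup.comm_conj hc.1 hu.2⟩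
  have := F.setup.conj_mem (F.cs_g_inv hc).1 hu.1
  rwa [show g⁻¹ * c * g * (g⁻¹ * u * g) * (g⁻¹ * c * g)⁻¹ = g⁻¹ * (c * u * c⁻¹) * g by group] at this

theorem inter_px {d : G} (hd : d ∈ Q) (hd' : InU Q z g d) : px pr d = 0 := by
  have hX : InX Q s d := ⟨hd, (F.u_cs hd').2⟩
  have sq : ∀ e, e ∈ Q → InU Q z g e → e * e = 1 := by
    intro e he he'
    rcases F.setup.sq_cases he with h | h
    · exact h
    · have h' := congrArg (fun t => g⁻¹ * t * g) h
      simp only [show g⁻¹ * (e * e) * g = g⁻¹ * e * g * (g⁻¹ * e * g) by group, F.g_inv_z] at h'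
      rcases F.setup.sq_cases he'.1 with h'' | h'' <;> rw [h''] at h'
      · exact absurd h'.symm F.s_ne
      · exact absurd h'.symm F.s_ne_z
  have hq : qW (px pr d) = 0 := by
    rcases zmod_cases (qW (px pr d)) with e | e
    · exact e
    · have := F.sq_x hX
      rw [sq d hd hd', e, pw_one] at this
      exact absurd this.symm F.setup.z_ne
  by_contra hne
  obtain ⟨b, hb, hba⟩ := exists_singular_pair _ hq hne
  have hb0 : b ≠ 0 := fun e => by rw [e, bW_zero_left] at hba; exact zero_ne_one hba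
  obtain ⟨c, hc, hcd⟩ := F.exists_between hq hne hb hb0
  have hd2 := F.setup.conj_mem hc.1 hd
  have hd2' := F.u_conj hc hd'
  have h1 := sq _ (Q.mul_mem hd hd2) (F.u_mul hd' hd2')
  have h2 := sq _ hd hd'
  have h3 := sq _ hd2 hd2'
  have hcomm : d * (c * d * c⁻¹) = c * d * c⁻¹ * d := by
    calc d * (c * d * c⁻¹) = d * (d * (c * d * c⁻¹) * (d * (c * d * c⁻¹))) * (c * d * c⁻¹) := by
          rw [h1, mul_one]
      _ = d * d * ((c * d * c⁻¹) * d) * ((c * d * c⁻¹) * (c * d * c⁻¹)) := by group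
      _ = c * d * c⁻¹ * d := by rw [h2, h3, one_mul, mul_one]
  have hB := F.setup.B_of_commute hd hd2 hcomm
  rw [F.pr_eq hX, F.pr_eq (F.x_conj hc hX), F.px_conj hc hX, hcd] at hB
  simp only [B_add_left, B_add_right, B_smul_left, B_smul_right, B_self, B_inj_e0,
    B_comm e0 (inj b), B_inj, mul_zero, add_zero, zero_add, bW_comm _ b, hba] at hB
  exact one_ne_zero hB

theorem inter_cases {d : G} (hd : d ∈ Q) (hd' : InU Q z g d) :
    ∃ i j : ZMod 2, d = pw s i * pw z j :=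
  F.px_eq_zero ⟨hd, (F.u_cs hd').2⟩ (F.inter_px hd hd')

theorem br_u {u : G} (hu : InU Q z g u) (a : V6) : br act u a = a := by
  obtain ⟨x, hx, rfl⟩ := F.exists_x a
  have hc := F.u_cs hu
  have hd1 : u * x * u⁻¹ * x⁻¹ ∈ Q := Q.mul_mem (F.setup.conj_mem hu.2 hx.1) (Q.inv_mem hx.1)
  have hd2 : InU Q z g (u * x * u⁻¹ * x⁻¹) := by
    have h2 := F.u_mul hu (F.u_conj (F.x_cs hx) (F.u_inv hu))
    rwa [show u * (x * u⁻¹ * x⁻¹) = u * x * u⁻¹ * x⁻¹ by group] at h2
  have hn := F.inter_px hd1 hd2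
  rw [F.px_mul (F.setup.conj_mem hu.2 hx.1) (Q.inv_mem hx.1), F.px_inv hx.1, F.px_conj hc hx] at hn
  exact eq_of_vadd hn

theorem act_u {u : G} (hu : InU Q z g u) (v : V) :
    app (act u) v = E e0 (inj (pu act u)) v :=
  eq_E (F.fix_e0 (F.u_cs hu)) (F.br_u hu) v

theorem pu_mul {u v : G} (hu : InU Q z g u) (hv : InU Q z g v) :
    pu act (u * v) = pu act u + pu act v := by
  refine par_eq_of_E fun x => ?_
  rw [F.setup.act_mul _ _ hu.2 hv.2, app_mul, F.act_u hv, F.act_u hu, inj_add,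
    E_comp q_e0 (by rw [B_comm, B_inj_e0]) (by rw [B_comm, B_inj_e0])]

theorem pu_conj {c u : G} (hc : Cs z s c) (hu : InU Q z g u) :
    pu act (c * u * c⁻¹) = br act c (pu act u) := by
  have h0 := F.fix_e0 hc
  rw [pu, par, F.setup.act_conj hc.1 hu.2, app_mul, app_mul, F.act_u hu, app_E, app_app_inv, h0]
  simp only [E, pj_add, pj_smul, pj_e1, pj_e0, smul_zero, add_zero, zero_add, B_e1_e0, one_smul]
  rfl

theorem pu_zero {u : G} (hu : InU Q z g u) (h : pu act u = 0) :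
    ∃ i j : ZMod 2, u = pw s i * pw z j := by
  refine F.inter_cases ((F.setup.act_ker u hu.2).1 (iso_ext fun v => ?_)) hu
  rw [F.act_u hu, h, inj_zero, E_zero, app_one]

theorem pu_q {u : G} (hu : u ∈ Q) : pu act u = 0 := by
  rw [pu, par, F.setup.act_Q hu, app_one, pj_e1]

/-- The parameters correspond by conjugation. -/
theorem exists_T : ∃ T : V6 → V6, (∀ a b, T (a + b) = T a + T b) ∧ Function.Bijective T ∧
    ∀ x, InX Q s x → pu act (g * x * g⁻¹) = T (px pr x) := by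
  choose l hl hpl using F.exists_x
  set T : V6 → V6 := fun a => pu act (g * l a * g⁻¹) with hT
  have hQ0 : ∀ i j : ZMod 2, g * (pw s i * pw z j) * g⁻¹ ∈ Q := by
    intro i j
    rw [show g * (pw s i * pw z j) * g⁻¹ = (g * pw s i * g⁻¹) * (g * pw z j * g⁻¹) by group,
      pw_conj, pw_conj, F.g_s, F.g_z]
    refine Q.mul_mem ?_ ?_
    · rcases zmod_cases i with rfl | rfl
      · exact Q.one_mem
      · exact F.setup.z_mem
    · rcases zmod_cases j with rfl | rfl
      · exact Q.one_mem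
      · exact F.s_mem
  have hzero : ∀ x, InX Q s x → px pr x = 0 → pu act (g * x * g⁻¹) = 0 := by
    intro x hx h
    obtain ⟨i, j, rfl⟩ := F.px_eq_zero hx h
    exact F.pu_q (hQ0 i j)
  have hspec : ∀ x, InX Q s x → pu act (g * x * g⁻¹) = T (px pr x) := by
    intro x hx
    set l' := l (px pr x) with hl'
    have hd : InX Q s (x * l') := F.x_mul hx (hl _)
    have h0 := hzero _ hd (by rw [F.px_mul hx.1 (hl _).1, hpl, vadd_self])
    rw [show g * (x * l') * g⁻¹ = (g * x * g⁻¹) * (g * l' * g⁻¹) by group,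
      F.pu_mul (F.u_of_x hx) (F.u_of_x (hl _))] at h0
    exact eq_of_vadd h0
  have hadd : ∀ a b, T (a + b) = T a + T b := by
    intro a b
    have := hspec _ (F.x_mul (hl a) (hl b))
    rw [F.px_mul (hl a).1 (hl b).1, hpl, hpl, show g * (l a * l b) * g⁻¹ =
      (g * l a * g⁻¹) * (g * l b * g⁻¹) by group, F.pu_mul (F.u_of_x (hl a)) (F.u_of_x (hl b))] at this
    exact this.symm
  have hinj : Function.Injective T := by
    intro a b e
    have h0 : T (a + b) = 0 := by rw [hadd, e, vadd_self]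
    obtain ⟨i, j, e'⟩ := F.pu_zero (F.u_of_x (hl (a + b))) h0
    refine eq_of_vadd ?_
    rw [← hpl (a + b), show l (a + b) = g⁻¹ * (pw s i * pw z j) * g by rw [← e']; group,
      show g⁻¹ * (pw s i * pw z j) * g =
        (g⁻¹ * pw s i * g⁻¹⁻¹) * (g⁻¹ * pw z j * g⁻¹⁻¹) by group,
      pw_conj, pw_conj, inv_inv, F.g_inv_s, F.g_inv_z]
    rcases zmod_cases i with rfl | rfl <;> rcases zmod_cases j with rfl | rfl <;>
      simp [pw_zero, pw_one, px, F.setup.pr_one, F.setup.pr_z, F.setup.pr_mul _ F.setup.z_mem _ F.s_mem,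
        F.s_pr, pj_zero, pj_e0]
  exact ⟨T, hadd, ⟨hinj, Finite.surjective_of_injective hinj⟩, hspec⟩

/-- A bijective additive map intertwining two realisations preserves singularity. -/
theorem singular_of_intertwine {T : V6 → V6} (hadd : ∀ a b, T (a + b) = T a + T b)
    (hinj : Function.Injective T)
    (hint : ∀ c, Cs z s c → ∃ d, Cs z s d ∧ ∀ a, T (br act c a) = br act d (T a))
    {a : V6} (ha : qW a = 0) : qW (T a) = 0 := by
  have h0 : T 0 = 0 := by
    have := hadd 0 0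
    rw [add_zero, vadd_self] at this
    exact this
  by_cases ha0 : a = 0
  · rw [ha0, h0, qW_zero]
  rcases zmod_cases (qW (T a)) with h | h
  · exact h
  exfalso
  have hall : ∀ b, qW b = 0 → b ≠ 0 → qW (T b) = 1 := by
    intro b hb hb0
    obtain ⟨c, hc, e⟩ := F.exists_between ha ha0 hb hb0
    obtain ⟨d, hd, hd'⟩ := hint c hc
    rw [← e, hd', F.br_q hd, h]
  obtain ⟨h1, h2, h3, h12, h13, h23, h123, n1, n2, n3, n12, n13, n23, n123⟩ := plane_facts
  have e12 := hall _ h12 n12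
  have e13 := hall _ h13 n13
  have e23 := hall _ h23 n23
  have e123 := hall _ h123 n123
  rw [hadd, qW_add, hall _ h1 n1] at e12 e13
  rw [hadd, qW_add, hall _ h2 n2, hall _ h3 n3] at e23
  rw [hall _ h2 n2] at e12
  rw [hall _ h3 n3] at e13
  rw [hadd, hadd, qW_add, qW_add, bW_add_right, hall _ h1 n1, hall _ h2 n2, hall _ h3 n3] at e123
  revert e12 e13 e23 e123
  generalize bW (T w1) (T w2) = x
  generalize bW (T w1) (T w3) = y
  generalize bW (T w2) (T w3) = w
  revert x y w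
  decide

/-- The correspondence is an isometry. -/
theorem exists_iso : ∃ T : V6 → V6, (∀ a b, T (a + b) = T a + T b) ∧ Function.Bijective T ∧
    (∀ a, qW (T a) = qW a) ∧ (∀ a b, bW (T a) (T b) = bW a b) ∧
    (∀ x, InX Q s x → pu act (g * x * g⁻¹) = T (px pr x)) := by
  obtain ⟨T, hadd, hbij, hspec⟩ := F.exists_T
  obtain ⟨R, hRT, hTR⟩ := Function.bijective_iff_has_inverse.1 hbij
  have hRadd : ∀ a b, R (a + b) = R a + R b := fun a b => by
    conv_lhs => rw [← hTR a, ← hTR b, ← hadd]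
    rw [hRT]
  have hint : ∀ c, Cs z s c → ∀ a, T (br act c a) = br act (g * c * g⁻¹) (T a) := by
    intro c hc a
    obtain ⟨x, hx, rfl⟩ := F.exists_x a
    rw [← hspec x hx, ← F.pu_conj (F.cs_g hc) (F.u_of_x hx), ← F.px_conj hc hx,
      ← hspec _ (F.x_conj hc hx)]
    congr 1
    group
  have hq : ∀ a, qW (T a) = qW a := by
    intro a
    rcases zmod_cases (qW a) with h | h
    · rw [h]
      exact F.singular_of_intertwine hadd hbij.1 (fun c hc => ⟨_, F.cs_g hc, hint c hc⟩) h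
    · rcases zmod_cases (qW (T a)) with h' | h'
      · have := F.singular_of_intertwine hRadd (Function.LeftInverse.injective hTR)
          (fun c hc => ⟨_, F.cs_g_inv hc, fun b => ?_⟩) h'
        · rw [hRT, h] at this; exact absurd this one_ne_zero
        · apply hbij.1
          rw [hTR, hint _ (F.cs_g_inv hc), hTR]
          congr 1
          group
      · rw [h, h']
  refine ⟨T, hadd, hbij, hq, fun a b => ?_, hspec⟩
  have := qW_add (T a) (T b)
  rw [← hadd, hq, hq, hq, qW_add] at this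
  exact (add_left_cancel this).symm

theorem exists_u (a : V6) : ∃ u, InU Q z g u ∧ pu act u = a := by
  obtain ⟨T, -, hbij, hspec⟩ := F.exists_T
  obtain ⟨b, rfl⟩ := hbij.2 a
  obtain ⟨x, hx, rfl⟩ := F.exists_x b
  exact ⟨_, F.u_of_x hx, hspec x hx⟩

theorem sq_u {u : G} (hu : InU Q z g u) : u * u = pw s (qW (pu act u)) := by
  obtain ⟨T, -, -, hq, -, hspec⟩ := F.exists_iso
  have hx := F.x_back hu
  have e := hspec _ hx
  rw [show g * (g⁻¹ * u * g) * g⁻¹ = u by group] at e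
  rw [e, hq, show u * u = g * (g⁻¹ * u * g * (g⁻¹ * u * g)) * g⁻¹ by group, F.sq_x hx, pw_conj,
    F.g_z]

theorem pr_pw (i j : ZMod 2) :
    pw s i * pw z j ∈ Q ∧ pr (pw s i * pw z j) = i • e0 := by
  rcases zmod_cases i with rfl | rfl <;> rcases zmod_cases j with rfl | rfl <;>
    simp [pw_zero, pw_one, F.setup.pr_one, F.setup.pr_z, F.s_pr, F.setup.z_mem, F.s_mem,
      Q.mul_mem F.s_mem F.setup.z_mem, F.setup.pr_mul _ F.s_mem _ F.setup.z_mem]

theorem pr_pw' (i j : ZMod 2) :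
    pw z i * pw s j ∈ Q ∧ pr (pw z i * pw s j) = j • e0 := by
  rcases zmod_cases i with rfl | rfl <;> rcases zmod_cases j with rfl | rfl <;>
    simp [pw_zero, pw_one, F.setup.pr_one, F.setup.pr_z, F.s_pr, F.setup.z_mem, F.s_mem,
      Q.mul_mem F.setup.z_mem F.s_mem, F.setup.pr_mul _ F.setup.z_mem _ F.s_mem]

/-- The commutator of the two subgroups. -/
theorem comm_ux {u x : G} (hu : InU Q z g u) (hx : InX Q s x) :
    u * x * u⁻¹ * x⁻¹ = pw (s * z) (bW (pu act u) (px pr x)) := by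
  obtain ⟨T, hadd, hbij, hq, hB, hspec⟩ := F.exists_iso
  set d : G → G → G := fun u x => u * x * u⁻¹ * x⁻¹ with hd
  have hmemQ : ∀ {u x}, InU Q z g u → InX Q s x → d u x ∈ Q ∧ InU Q z g (d u x) := by
    intro u x hu hx
    refine ⟨Q.mul_mem (F.setup.conj_mem hu.2 hx.1) (Q.inv_mem hx.1), ?_⟩
    have h2 := F.u_mul hu (F.u_conj (F.x_cs hx) (F.u_inv hu))
    rwa [show u * (x * u⁻¹ * x⁻¹) = u * x * u⁻¹ * x⁻¹ by group] at h2
  have hpr : ∀ {u x}, InU Q z g u → InX Q s x →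
      pr (d u x) = bW (pu act u) (px pr x) • e0 := by
    intro u x hu hx
    show pr (u * x * u⁻¹ * x⁻¹) = _
    rw [F.setup.pr_mul _ (F.setup.conj_mem hu.2 hx.1) _ (Q.inv_mem hx.1), F.setup.pr_inv hx.1,
      F.setup.act_pr u hu.2 x hx.1, F.act_u hu, E, F.x_perp hx, B_comm (pr x) (inj _), B_inj_left]
    simp only [zero_smul, add_zero, mul_zero, px]
    rw [add_comm (pr x), vadd_cancel]
  have hs : ∀ {u x}, InU Q z g u → InX Q s x →
      ∃ j, d u x = pw s (bW (pu act u) (px pr x)) * pw z j := by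
    intro u x hu hx
    obtain ⟨i, j, e⟩ := F.inter_cases (hmemQ hu hx).1 (hmemQ hu hx).2
    refine ⟨j, ?_⟩
    have hp := hpr hu hx
    rw [e] at hp ⊢
    have hpi := (F.pr_pw i j).2
    rw [hpi] at hp
    have := congrFun hp (.inl 0)
    simp [show e0 (.inl 0) = 1 from rfl] at this
    rw [this]
  choose! μ hμ using fun u x (h : InU Q z g u ∧ InX Q s x) => hs h.1 h.2
  set c2 := (g * g)⁻¹ with hc2
  have hc2' : Cs z s c2 := F.cs_inv F.cs_gg
  -- the exponent of z is the bilinear form of the images under conjugation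
  have hval : ∀ {u x}, InU Q z g u → InX Q s x →
      μ u x = bW (br act c2 (T (px pr x))) (px pr (g⁻¹ * u * g)) := by
    intro u x hu hx
    have hu' := F.u_of_x_inv hx
    have hx' := F.x_back hu
    have e1 : pu act (g⁻¹ * x * g) = br act c2 (T (px pr x)) := by
      rw [← hspec x hx, ← F.pu_conj hc2' (F.u_of_x hx)]
      congr 1
      rw [hc2]; group
    rw [← e1]
    have eg : g⁻¹ * d u x * g = (d (g⁻¹ * x * g) (g⁻¹ * u * g))⁻¹ := by simp only [hd]; group
    rw [hμ u x ⟨hu, hx⟩, hμ _ _ ⟨hu', hx'⟩] at eg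
    set i := bW (pu act u) (px pr x)
    set k := bW (pu act (g⁻¹ * x * g)) (px pr (g⁻¹ * u * g))
    set m := μ (g⁻¹ * x * g) (g⁻¹ * u * g)
    set j := μ u x
    rw [show g⁻¹ * (pw s i * pw z j) * g = (g⁻¹ * pw s i * g⁻¹⁻¹) * (g⁻¹ * pw z j * g⁻¹⁻¹) by group,
      pw_conj, pw_conj, inv_inv, F.g_inv_s, F.g_inv_z] at eg
    have := congrArg pr eg
    rw [F.setup.pr_inv (F.pr_pw k m).1, (F.pr_pw k m).2, (F.pr_pw' i j).2] at this
    have := congrFun this (.inl 0)
    simpa [show e0 (.inl 0) = 1 from rfl] using this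
  -- invariance
  have hinv : ∀ {c u x}, Cs z s c → InU Q z g u → InX Q s x →
      μ (c * u * c⁻¹) (c * x * c⁻¹) = μ u x := by
    intro c u x hc hu hx
    have hu' := F.u_conj hc hu
    have hx' := F.x_conj hc hx
    have e : d (c * u * c⁻¹) (c * x * c⁻¹) = c * d u x * c⁻¹ := by simp only [hd]; group
    rw [hμ u x ⟨hu, hx⟩, hμ _ _ ⟨hu', hx'⟩, F.pu_conj hc hu, F.px_conj hc hx, F.br_B hc,
      show c * (pw s (bW (pu act u) (px pr x)) * pw z (μ u x)) * c⁻¹ =
        (c * pw s (bW (pu act u) (px pr x)) * c⁻¹) * (c * pw z (μ u x) * c⁻¹) by group,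
      pw_conj, pw_conj, mul_inv_eq_iff_eq_mul.2 hc.2, mul_inv_eq_iff_eq_mul.2 hc.1] at e
    have := mul_left_cancel e
    rcases zmod_cases (μ u x) with h | h <;> rcases zmod_cases (μ (c * u * c⁻¹) (c * x * c⁻¹)) with h' | h' <;>
      rw [h, h'] at this ⊢
    · exact absurd this F.setup.z_ne
    · exact absurd this.symm F.setup.z_ne
  -- as a function of the parameters
  obtain ⟨R, hRT, hTR⟩ := Function.bijective_iff_has_inverse.1 hbij
  set M : V6 → V6 → ZMod 2 := fun a b => bW (br act c2 (T b)) (R a) with hM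
  have hμM : ∀ {u x}, InU Q z g u → InX Q s x → μ u x = M (pu act u) (px pr x) := by
    intro u x hu hx
    rw [hval hu hx, hM]
    have e := hspec _ (F.x_back hu)
    rw [show g * (g⁻¹ * u * g) * g⁻¹ = u by group] at e
    simp only [e]
    rw [hRT]
  have hMinv : ∀ {c}, Cs z s c → ∀ a b, M (br act c a) (br act c b) = M a b := by
    intro c hc a b
    obtain ⟨u, hu, rfl⟩ := F.exists_u a
    obtain ⟨x, hx, rfl⟩ := F.exists_x b
    rw [← F.pu_conj hc hu, ← F.px_conj hc hx, ← hμM (F.u_conj hc hu) (F.x_conj hc hx), hinv hc hu hx,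
      hμM hu hx]
  have hRadd : ∀ a b, R (a + b) = R a + R b := fun a b => by
    conv_lhs => rw [← hTR a, ← hTR b, ← hadd]
    rw [hRT]
  -- the representing vector at `w1`
  set v := R (br act c2⁻¹ (R w1)) with hv
  have hrep : ∀ b, M w1 b = bW v b := by
    intro b
    simp only [hM]
    rw [hv, ← hB (R (br act c2⁻¹ (R w1))) b, hTR, bW_comm (br act c2⁻¹ (R w1)),
      ← F.br_B hc2' (T b) (br act c2⁻¹ (R w1)), F.br_inv' hc2']
  have hvne : v ≠ 0 := by
    intro e
    have h1 : br act c2⁻¹ (R w1) = 0 := by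
      rw [← hTR (br act c2⁻¹ (R w1)), ← hv, e]
      have := hadd 0 0
      rw [add_zero, vadd_self] at this
      exact this
    have h2 : R w1 = 0 := by
      rw [← F.br_inv' hc2' (R w1), h1, br, bar_zero]
    have h3 := hTR w1
    rw [h2] at h3
    have := hadd 0 0
    rw [add_zero, vadd_self] at this
    rw [this] at h3
    exact plane_facts.2.2.2.2.2.2.2.1 h3.symm
  have hveq : v = w1 := by
    by_contra hne
    obtain ⟨m, ⟨hm, hm1⟩, n, ⟨hn, hn1⟩, hmv⟩ := moved_off_line v hvne hne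
    obtain ⟨c, hc, hb⟩ := F.exists_cs hm hn
    have hw1 : br act c w1 = w1 := by rw [hb, rfW_fix hn1, rfW_fix hm1]
    apply hmv
    rw [← hb]
    by_contra hne'
    obtain ⟨b, hb'⟩ := exists_nonperp_six _ (fun e => hne' (eq_of_vadd e))
    have e := hMinv hc w1 (br act c⁻¹ b)
    rw [hw1, F.br_inv' hc, hrep, hrep, ← F.br_B hc v (br act c⁻¹ b), F.br_inv' hc] at e
    rw [bW_add_left, ← e, zmod_add_self] at hb'
    exact zero_ne_one hb'
  have hsing : ∀ a b, qW a = 0 → M a b = bW a b := by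
    intro a b ha
    by_cases h0 : a = 0
    · rw [h0, hM, bW_zero_left]
      have := hRadd 0 0
      rw [add_zero, vadd_self] at this
      simp only [this, bW_zero_right]
    · obtain ⟨c, hc, e⟩ := F.exists_to_w1 ha h0
      rw [← hMinv hc a b, e, hrep, hveq, ← e, F.br_B hc]
  have hall : ∀ a b, M a b = bW a b := by
    intro a b
    rcases zmod_cases (qW a) with ha | ha
    · exact hsing a b ha
    · obtain ⟨c, hc, hc'⟩ := exists_sum_singular a ha
      have e := hsing c b hc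
      have e' := hsing (a + c) b hc'
      simp only [hM] at e e' ⊢
      rw [hRadd, bW_add_right, e, bW_add_left] at e'
      exact add_right_cancel e'
  show d u x = _
  rw [hμ u x ⟨hu, hx⟩, hμM hu hx, hall, pw_mul]

end Frame

end CfsgLib.ConwayType59
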