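import Cfsg.Agent.ConwayType59.Root

/-!
Reduction of an involution of the centralizer of `z` to one acting trivially in dimension six.
-/

set_option autoImplicit false
set_option synthInstance.maxSize 2000
set_option linter.unusedSectionVars false
set_option linter.unusedVariables false

namespace CfsgLib.ConwayType59

open Cfsg

theorem rt_rt : ∀ a : V6, rt (rt a) = a := by decide +kernel

theorem rt_of_perp {a : V6} (h1 : bW a w1 = 0) (h2 : bW a w2 = 0) : rt a = a := by
  simp [rt, h1, h2]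

theorem rt_add (a b : V6) : rt (a + b) = rt a + rt b := by
  simp only [rt, bW_add_left, add_smul]; abel

theorem rt_moves : rt (Sum.elim ![0, 0, 0] ![1, 0, 0]) ≠ Sum.elim ![0, 0, 0] ![1, 0, 0] := by decide

theorem w_facts : bW w1 w2 = 0 ∧ qW w1 = 0 ∧ qW w2 = 0 ∧ rt w1 = w1 ∧ rt w2 = w2 := by decide

theorem onLine_add : ∀ a : V6, OnLine a → ∀ b : V6, OnLine b → OnLine (a + b) := by decide +kernel

theorem E_pj {b : V} (hb : B b e0 = 0) (hq : q b = 0) (x : V) :
    E e0 (inj (pj b)) x = E e0 b x := by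
  have hd : b = b (.inl 0) • e0 + inj (pj b) := by
    conv_lhs => rw [decomp b, ← B_e0 b, hb, zero_smul, add_zero]
  have hw : qW (pj b) = 0 := by
    rw [q, ← B_e0 b, hb, mul_zero, zero_add] at hq
    exact hq
  conv_rhs => rw [hd]
  simp only [E, q_inj, hw, q_add, B_add_right, B_smul_left, B_smul_right, B_comm e0 (inj _), B_inj_e0,
    mul_zero, add_zero, zero_mul, zero_add]
  rcases zmod_cases (b (.inl 0)) with e | e <;> simp [e, q_zero, q_e0]
  match_scalars <;> (ring_nf; try simp [two_zero])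

theorem flat_table : ∀ a : V6, OnLine a → ∀ p : V6, bW p (if a = 0 then w1 else a) = 0 →
    ∀ l r : ZMod 2,
      E (inj w1) (inj w2) (E e0 (inj a) (l • e0 + r • e1 + inj p)) = l • e0 + r • e1 + inj p ∨
      E (inj w1) (inj w2) (E e0 (inj a) (l • e0 + r • e1 + inj p)) =
        l • e0 + r • e1 + inj p + inj (if a = 0 then w1 else a) := by
  decide +kernel

variable {G : Type*} [Group G] [Finite G] {z s g : G} {Q : Subgroup G} {pr : G → V} {act : G → Iso}

namespace Frame

variable (F : Frame z s g Q pr act)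
include F

theorem act_invol {y : G} (hy : y * z = z * y) (hy2 : y * y = 1) (v : V) :
    app (act y) (app (act y) v) = v := by
  rw [← app_mul, ← F.setup.act_mul _ _ hy hy, hy2, F.setup.act_one, app_one]

theorem br_invol {y : G} (hy : Cs z s y) (hy2 : y * y = 1) (a : V6) :
    br act y (br act y a) = a := by
  rw [← F.br_mul hy hy, hy2, br, F.setup.act_one, bar_one]

theorem par_fixed {y : G} (hy : Cs z s y) (hy2 : y * y = 1) :
    br act y (pu act y) = pu act y := by
  have h0 := F.fix_e0 hy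
  have hr : app (act y) e1 (.inr 0) = 1 := by
    rw [← B_e0 (app (act y) e1)]
    nth_rewrite 1 [← h0]
    rw [app_B, B_e1_e0]
  have hd := decomp (app (act y) e1)
  rw [hr, one_smul] at hd
  have h2 := F.act_invol hy.1 hy2 e1
  rw [hd, app_add, app_add, app_smul, h0] at h2
  have h3 := congrArg pj h2
  simp only [pj_add, pj_smul, pj_e0, smul_zero, zero_add, pj_e1] at h3
  exact (eq_of_vadd h3).symm

theorem app_fix {y : G} (hy : Cs z s y) {b : V6} (hb : br act y b = b) :
    app (act y) (inj b) = bW b (pu act y) • e0 + inj b := by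
  have h0 := F.fix_e0 hy
  have e := app_inj h0 b
  rw [show bar (act y) b = b from hb] at e
  have hr : app (act y) e1 (.inr 0) = 1 := by
    rw [← B_e0 (app (act y) e1)]
    nth_rewrite 1 [← h0]
    rw [app_B, B_e1_e0]
  have hd := decomp (app (act y) e1)
  rw [hr, one_smul] at hd
  have h := app_B (act y) (inj b) e1
  rw [B_inj_e1] at h
  conv_lhs at h => rw [e, hd]
  simp only [B_add_left, B_add_right, B_smul_left, B_smul_right, B_self, B_inj, B_inj_e0, B_inj_e1,
    B_comm e0 (inj (pj (app (act y) e1))), B_e0_e1, mul_zero, mul_one, add_zero, zero_add] at h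
  rwa [zmod_eq_of_add _ _ h] at e

theorem pr_u_skew {u v : G} (hu : InU Q z g u) (hv : InU Q z g v) :
    ∃ k : ZMod 2, u * v * u⁻¹ = v * pw s k := by
  have h : u * v * u⁻¹ = g * (g⁻¹ * u * g * (g⁻¹ * v * g) * (g⁻¹ * u * g)⁻¹) * g⁻¹ := by group
  rcases F.setup.skew hu.1 hv.1 with ⟨-, e⟩ | ⟨-, e⟩
  · refine ⟨0, ?_⟩
    rw [h, e, pw_zero, mul_one]; group
  · refine ⟨1, ?_⟩
    rw [h, F.setup.conj_eq_mul_z hu.1 hv.1 ?_, pw_one]
    · rw [show g * (g⁻¹ * v * g * z) * g⁻¹ = v * (g * z * g⁻¹) by group, F.g_z]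
    · rcases F.setup.skew hu.1 hv.1 with ⟨-, e'⟩ | ⟨e', -⟩
      · rw [e'] at e; exact absurd (mul_eq_left.1 e.symm) F.setup.z_ne
      · exact e'

theorem x_swap {u x : G} (hu : InU Q z g u) (hx : InX Q s x) :
    x * u * x⁻¹ = u * (pw s (bW (pu act u) (px pr x)) * pw z (bW (pu act u) (px pr x))) := by
  have e := F.comm_ux (F.u_inv hu) hx
  have hp : pu act u⁻¹ = pu act u := by
    have := F.pu_mul (F.u_inv hu) hu
    rw [inv_mul_cancel, F.pu_q Q.one_mem] at this
    exact eq_of_vadd this.symm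
  rw [hp, inv_inv, F.pw_sz] at e
  rw [← e]; group

/-- A standard involution above the standard root map. -/
theorem exists_t0 : ∃ t, Cs z s t ∧ t * t = 1 ∧ (∀ v, app (act t) v = E (inj w1) (inj w2) v) ∧
    (∀ x ∈ Q, B (pr x) (inj w1) = 0 → B (pr x) (inj w2) = 0 → t * x = x * t) ∧
    (∀ u, InU Q z g u → bW (pu act u) w1 = 0 → bW (pu act u) w2 = 0 →
      ∃ j, t * u * t⁻¹ * u⁻¹ = pw z j) := by
  obtain ⟨hw12, hq1, hq2, -, -⟩ := w_facts
  obtain ⟨f0, hf0, hfe⟩ := exists_move_one (v := inj w1) ((q_inj w1).trans hq1)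
    (fun e => absurd (congrArg pj e) (by rw [pj_inj, pj_zero]; decide))
  obtain ⟨c, hc, hca⟩ := F.setup.exists_act (inv_mem hf0)
  have hce : app (act c) e0 = inj w1 := by rw [hca, ← hfe, app_inv_app]
  set b := app (act c)⁻¹ (inj w2) with hb
  have hb0 : B b e0 = 0 := by
    rw [← app_B (act c), hb, app_app_inv, hce, B_inj, bW_comm, hw12]
  have hbq : q b = 0 := by rw [← app_q (act c), hb, app_app_inv, q_inj, hq2]
  obtain ⟨u, hu, hua⟩ := F.exists_u (pj b)
  have hu2 : u * u = 1 := by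
    rw [F.sq_u hu, hua]
    rw [q, ← B_e0 b, hb0, mul_zero, zero_add] at hbq
    rw [hbq, pw_zero]
  set t := c * u * c⁻¹ with ht
  have htz : t * z = z * t := F.setup.comm_conj hc hu.2
  have htm : ∀ v, app (act t) v = E (inj w1) (inj w2) v := by
    intro v
    rw [ht, F.setup.act_conj hc hu.2, app_mul, app_mul, F.act_u hu, hua, E_pj hb0 hbq, app_E,
      app_app_inv, hce, app_app_inv]
  have hC : ∀ x ∈ Q, B (pr x) (inj w1) = 0 → B (pr x) (inj w2) = 0 → t * x = x * t := by
    intro x hx h1 h2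
    set x' := c⁻¹ * x * c with hx'
    have hci := F.setup.comm_inv hc
    have hx'Q : x' ∈ Q := by
      have := F.setup.conj_mem hci hx
      rwa [show c⁻¹ * x * c⁻¹⁻¹ = x' by rw [hx']; group] at this
    have hpx : pr x' = app (act c)⁻¹ (pr x) := by
      have := F.setup.act_pr _ hci x hx
      rwa [show c⁻¹ * x * c⁻¹⁻¹ = x' by rw [hx']; group, F.setup.act_inv hc] at this
    have hperp : B (pr x') e0 = 0 := by
      rw [hpx, ← app_B (act c), app_app_inv, hce, h1]
    have hX := F.x_of_perp hx'Q hperp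
    have hb' : bW (pu act u) (px pr x') = 0 := by
      have e : B b (pr x') = 0 := by rw [hpx, hb, app_B, B_comm, h2]
      rw [B, ← B_e0 b, hb0, ← B_e0 (pr x'), hperp, mul_zero, zero_mul, zero_add, zero_add] at e
      rw [hua]; exact e
    have e := F.comm_ux hu hX
    rw [hb', pw_zero] at e
    have e' : u * x' = x' * u := mul_inv_eq_iff_eq_mul.1 (mul_inv_eq_one.1 e)
    calc t * x = c * (u * x') * c⁻¹ := by rw [ht, hx']; group
      _ = c * (x' * u) * c⁻¹ := by rw [e']
      _ = x * t := by rw [ht, hx']; group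
  have hts : t * s = s * t := hC s F.s_mem (by rw [F.s_pr, B_comm, B_inj_e0])
    (by rw [F.s_pr, B_comm, B_inj_e0])
  have htC : Cs z s t := ⟨htz, hts⟩
  refine ⟨t, htC, ?_, htm, hC, fun u1 hu1 h1 h2 => ?_⟩
  · rw [ht, show c * u * c⁻¹ * (c * u * c⁻¹) = c * (u * u) * c⁻¹ by group, hu2]; group
  set d := t * u1 * t⁻¹ * u1⁻¹ with hd
  have hdU : InU Q z g d := F.u_mul (F.u_conj htC hu1) (F.u_inv hu1)
  have hbr : br act t (pu act u1) = pu act u1 := by
    rw [br, bar, htm]
    simp [E, pj_add, pj_smul, pj_inj, B_inj, h1, h2]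
  have hp : pu act d = 0 := by
    have hi : pu act u1⁻¹ = pu act u1 := by
      have := F.pu_mul (F.u_inv hu1) hu1
      rw [inv_mul_cancel, F.pu_q Q.one_mem] at this
      exact eq_of_vadd this.symm
    rw [hd, F.pu_mul (F.u_conj htC hu1) (F.u_inv hu1), F.pu_conj htC hu1, hbr, hi, vadd_self]
  obtain ⟨i, j, e⟩ := F.pu_zero hdU hp
  have hdQ : d ∈ Q := by rw [e]; exact (F.pr_pw i j).1
  -- in the conjugate frame
  obtain ⟨sf, hsf, hsfp⟩ : ∃ x ∈ Q, pr x = inj w1 := F.setup.pr_surj _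
  have hsfX : InX Q s sf := F.x_of_perp hsf (by rw [hsfp, B_inj_e0])
  have hcom : u1 * sf = sf * u1 := by
    have e' := F.comm_ux hu1 hsfX
    rw [px, hsfp, pj_inj, h1, pw_zero] at e'
    exact mul_inv_eq_iff_eq_mul.1 (mul_inv_eq_one.1 e')
  have hc' : InU Q z g (c⁻¹ * d * c) := by
    have hs' : Cs z s (c⁻¹ * u1 * c) := by
      refine ⟨?_, ?_⟩
      · have := F.setup.comm_conj (F.setup.comm_inv hc) hu1.2
        rwa [inv_inv] at this
      · have hcs : pr (c * s * c⁻¹) = pr sf := by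
          rw [F.setup.act_pr c hc s F.s_mem, F.s_pr, hce, hsfp]
        have hcm : u1 * (c * s * c⁻¹) = c * s * c⁻¹ * u1 := by
          rcases F.setup.pr_congr (F.setup.conj_mem hc F.s_mem) hsf hcs with e' | e' <;> rw [e']
          · exact hcom
          · rw [← mul_assoc, hcom, mul_assoc, hu1.2, mul_assoc]
        calc c⁻¹ * u1 * c * s = c⁻¹ * (u1 * (c * s * c⁻¹)) * c := by group
          _ = c⁻¹ * (c * s * c⁻¹ * u1) * c := by rw [hcm]
          _ = s * (c⁻¹ * u1 * c) := by group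
    have := F.u_mul hu (F.u_conj hs' (F.u_inv hu))
    rwa [show u * (c⁻¹ * u1 * c * u⁻¹ * (c⁻¹ * u1 * c)⁻¹) = c⁻¹ * d * c by rw [hd, ht]; group] at this
  have hc'Q : c⁻¹ * d * c ∈ Q := by
    have := F.setup.conj_mem (F.setup.comm_inv hc) hdQ
    rwa [inv_inv] at this
  obtain ⟨k, l, e'⟩ := F.inter_cases hc'Q hc'
  have hpr : pr d = k • inj w1 := by
    have : d = c * (c⁻¹ * d * c) * c⁻¹ := by group
    rw [this, e', F.setup.act_pr c hc _ (F.pr_pw k l).1, (F.pr_pw k l).2, app_smul, hce]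
  rw [e, (F.pr_pw i j).2] at hpr
  have hi : i = 0 := by
    have := congrFun hpr (.inl 0)
    simpa [show e0 (.inl 0) = 1 from rfl, inj_inl] using this
  exact ⟨j, by rw [e, hi, pw_zero, one_mul]⟩

/-- The data of a standard root involution. -/
theorem root_data {y : G} (hy : Cs z s y) (hy2 : y * y = 1) (hb : ∀ a, br act y a = rt a)
    {t : G} (htC : Cs z s t) (ht2 : t * t = 1)
    (htm : ∀ v, app (act t) v = E (inj w1) (inj w2) v)
    (hC : ∀ x ∈ Q, B (pr x) (inj w1) = 0 → B (pr x) (inj w2) = 0 → t * x = x * t)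
    (hU : ∀ u, InU Q z g u → bW (pu act u) w1 = 0 → bW (pu act u) w2 = 0 →
      ∃ j, t * u * t⁻¹ * u⁻¹ = pw z j) :
    ∃ u x, InU Q z g u ∧ InX Q s x ∧ y = t * u * x ∧ pu act y = pu act u ∧
      (bW (pu act u) w1 = 0 ∧ bW (pu act u) w2 = 0) ∧ (bW (px pr x) w1 = 0 ∧ bW (px pr x) w2 = 0) ∧
      qW (pu act u) = bW (pu act u) (px pr x) ∧
      ∃ j, t * u * t⁻¹ * u⁻¹ = pw z j ∧ j = qW (px pr x) + qW (pu act u) := by
  have hbt : ∀ a, br act t a = rt a := by
    intro a
    rw [br, bar, htm]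
    simp [E, rt, pj_add, pj_smul, pj_inj, B_inj, q_inj, w_facts.2.2.1]
  have hk := F.cs_mul (F.cs_inv htC) hy
  have hkb : ∀ a, br act (t⁻¹ * y) a = a := fun a => by
    rw [F.br_mul (F.cs_inv htC) hy, hb, ← hbt, F.br_inv htC]
  obtain ⟨u, x, hu, hx, e⟩ := F.exists_decomp hk hkb
  have hy' : y = t * u * x := by rw [mul_assoc, ← e]; group
  have hpy : pu act y = rt (pu act u) := by
    rw [hy', pu, par, F.setup.act_mul _ _ (F.setup.comm_mul htC.1 hu.2) (F.x_cs hx).1,
      F.setup.act_Q hx.1, mul_one, F.setup.act_mul _ _ htC.1 hu.2, app_mul, F.act_u hu, htm]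
    simp [E, rt, pj_add, pj_smul, pj_inj, pj_e1, pj_e0, B_add_left, B_smul_left, B_inj, B_inj_e0,
      B_inj_e1, B_e1_e0, B_comm e1 (inj _), B_comm e0 (inj _), q_inj, w_facts.2.2.1]
  have hfix : rt (pu act u) = pu act u := by
    have := F.par_fixed hy hy2
    rw [hb, hpy, rt_rt] at this
    exact this.symm
  rw [hfix] at hpy
  obtain ⟨ha1, ha2⟩ := fix_rt _ hfix
  obtain ⟨j, hj⟩ := hU u hu ha1 ha2
  refine ⟨u, x, hu, hx, hy', hpy, ⟨ha1, ha2⟩, ?_⟩
  have hxX := F.x_conj htC hx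
  set x' := t * x * t⁻¹ with hx'
  have hswap : ∀ {x0}, InX Q s x0 → ∃ i k, x0 * u = u * (pw s i * pw z k) * x0 := by
    intro x0 h0
    exact ⟨_, _, mul_inv_eq_iff_eq_mul.1 (F.x_swap hu h0)⟩
  have hti : t⁻¹ = t := inv_eq_of_mul_eq_one_right ht2
  have htu : t * u * t = pw z j * u := by rw [← hj, hti]; group
  have hy2' : pw z j * (u * x' * (u * x)) = 1 := by
    rw [← hy2, hy', hx']
    calc pw z j * (u * (t * x * t⁻¹) * (u * x)) = (pw z j * u) * (t * x * t⁻¹) * (u * x) := by group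
      _ = t * u * (t * t) * x * t⁻¹ * (u * x) := by rw [← htu]; group
      _ = _ := by rw [ht2, hti]; group
  obtain ⟨i, k, ek⟩ := hswap hxX
  have hd : (pw s i * pw z k) * ((u * u) * (x' * x)) = pw z j := by
    have hjj := pw_sq F.setup.z_sq j
    calc pw s i * pw z k * (u * u * (x' * x)) = u * (u * (pw s i * pw z k) * x') * x := by
          rw [show u * (u * (pw s i * pw z k) * x') * x = u * (u * (pw s i * pw z k)) * x' * x by group,
            F.comm_pwpw (F.u_cs hu), ← mul_assoc u (pw s i * pw z k) u, F.comm_pwpw (F.u_cs hu)]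
          group
      _ = u * x' * (u * x) := by rw [← ek]; group
      _ = pw z j * (pw z j * (u * x' * (u * x))) := by rw [← mul_assoc (pw z j), hjj, one_mul]
      _ = pw z j := by rw [hy2', mul_one]
  have hxx : px pr (x' * x) = 0 := by
    rw [F.sq_u hu] at hd
    have hm : x' * x = pw s (i + qW (pu act u)) * pw z (k + j) := by
      have e1 : pw s (qW (pu act u)) * (x' * x) = pw s i * pw z k * pw z j := by
        rw [← hd, ← mul_assoc (pw s i * pw z k) (pw s i * pw z k), F.pwpw_mul, zmod_add_self,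
          zmod_add_self, pw_zero, pw_zero, one_mul, one_mul]
      calc x' * x = pw s (qW (pu act u)) * (pw s (qW (pu act u)) * (x' * x)) := by
            rw [← mul_assoc, pw_sq F.s_sq, one_mul]
        _ = _ := by
            rw [e1, mul_assoc (pw s i), ← pw_add F.setup.z_sq, ← mul_assoc, ← pw_add F.s_sq,
              add_comm (qW _) i]
    rw [hm, px, (F.pr_pw _ _).2, pj_smul, pj_e0, smul_zero]
  rw [F.px_mul hxX.1 hx.1, hx', F.px_conj htC hx, hbt] at hxx
  obtain ⟨hv1, hv2⟩ := fix_rt _ (eq_of_vadd hxx)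
  have hperp : ∀ w : V6, bW (px pr x) w = 0 → B (pr x) (inj w) = 0 := by
    intro w hw
    rw [B_comm, B_inj_left, bW_comm]; exact hw
  have hxc : x' = x := by
    rw [hx', hC x hx.1 (hperp _ hv1) (hperp _ hv2), mul_inv_cancel_right]
  rw [hxc, F.sq_pair hu hx, ← mul_assoc, pw_comm (c := pw z j) (F.cs_pw F.cs_z).2, mul_assoc,
    ← pw_add F.setup.z_sq] at hy2'
  obtain ⟨h1, h2⟩ := F.pwpw_eq_one hy2'
  refine ⟨⟨hv1, hv2⟩, zmod_eq_of_add _ _ h1, j, hj, ?_⟩
  have := zmod_eq_of_add _ _ h2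
  rw [this, zmod_eq_of_add _ _ h1]

/-- A flat root involution reduces. -/
theorem reduce_flat {y : G} (hy : Cs z s y) (hy2 : y * y = 1) (hy1 : y ≠ 1)
    (hb : ∀ a, br act y a = rt a) (hline : OnLine (pu act y)) :
    ∃ y', Cs z s y' ∧ (∀ a, br act y' a = a) ∧ y' * y' = 1 ∧ y' ≠ 1 ∧ IsConj y y' := by
  obtain ⟨t, htC, ht2, htm, hC, hU⟩ := F.exists_t0
  obtain ⟨u, x, hu, hx, hy', hpy, ⟨ha1, ha2⟩, ⟨hv1, hv2⟩, -, -⟩ :=
    F.root_data hy hy2 hb htC ht2 htm hC hU
  set a := pu act u with ha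
  rw [hpy] at hline
  obtain ⟨a'', ha''⟩ : ∃ a'' : V6, a'' = if a = 0 then w1 else a := ⟨_, rfl⟩
  have hL : OnLine a'' := by
    rw [ha'']; split_ifs with h
    · exact Or.inr (Or.inl rfl)
    · exact hline
  have hne : a'' ≠ 0 := by
    rw [ha'']; split_ifs with h
    · decide
    · exact h
  have hq : qW a'' = 0 := qW_onLine _ hL
  obtain ⟨f0, hf0, hfe⟩ := exists_move_one (v := inj a'') ((q_inj a'').trans hq)
    (fun e => hne (by rw [← pj_inj a'', e, pj_zero]))
  obtain ⟨c, hc, hca⟩ := F.setup.exists_act (inv_mem hf0)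
  have hce : app (act c) e0 = inj a'' := by rw [hca, ← hfe, app_inv_app]
  set sf := c * s * c⁻¹ with hsf
  have hsfQ : sf ∈ Q := F.setup.conj_mem hc F.s_mem
  have hsfp : pr sf = inj a'' := by rw [hsf, F.setup.act_pr c hc s F.s_mem, F.s_pr, hce]
  have hw1 : bW w1 a'' = 0 := onLine_perp a'' hL w1 (bW_self w1) w_facts.1
  have hw2 : bW w2 a'' = 0 := onLine_perp a'' hL w2 (by rw [bW_comm]; exact w_facts.1) (bW_self w2)
  have hva : bW (px pr x) a'' = 0 := onLine_perp a'' hL _ hv1 hv2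
  have haa : bW a a'' = 0 := onLine_perp a'' hL _ ha1 ha2
  have hys : y * sf = sf * y := by
    have hsX : InX Q s sf := F.x_of_perp hsfQ (by rw [hsfp, B_inj_e0])
    have h1 : t * sf = sf * t := hC sf hsfQ (by rw [hsfp, B_inj, bW_comm, hw1])
      (by rw [hsfp, B_inj, bW_comm, hw2])
    have h2 : u * sf = sf * u := by
      have e := F.comm_ux hu hsX
      rw [← ha, px, hsfp, pj_inj, haa, pw_zero] at e
      exact mul_inv_eq_iff_eq_mul.1 (mul_inv_eq_one.1 e)
    have h3 : x * sf = sf * x := F.setup.commute_of hx.1 hsfQ (by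
      rw [hsfp, B_comm, B_inj_left, bW_comm]; exact hva)
    rw [hy']
    exact (((show Commute t sf from h1).mul_left h2).mul_left h3).eq
  have hci := F.setup.comm_inv hc
  set y' := c⁻¹ * y * c with hy''
  have hz' : y' * z = z * y' := by
    have := F.setup.comm_conj hci hy.1
    rwa [inv_inv] at this
  have hC' : Cs z s y' := by
    refine ⟨hz', ?_⟩
    calc y' * s = c⁻¹ * (y * sf) * c := by rw [hy'', hsf]; group
      _ = s * y' := by rw [hys, hy'', hsf]; group
  refine ⟨y', hC', fun b => ?_, ?_, ?_, isConj_iff.2 ⟨c⁻¹, by rw [hy'']; group⟩⟩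
  rotate_left
  · rw [hy'', show c⁻¹ * y * c * (c⁻¹ * y * c) = c⁻¹ * (y * y) * c by group, hy2]; group
  · intro e; apply hy1
    rw [show y = c * y' * c⁻¹ by rw [hy'']; group, e]; group
  have hact : ∀ v, app (act y) v = app (act t) (E e0 (inj a) v) := by
    intro v
    rw [hy', F.setup.act_mul _ _ (F.setup.comm_mul htC.1 hu.2) (F.x_cs hx).1,
      F.setup.act_Q hx.1, mul_one, F.setup.act_mul _ _ htC.1 hu.2, app_mul, F.act_u hu]
  set X := app (act c) (inj b) with hX
  have hXp : B X (inj a'') = 0 := by rw [hX, ← hce, app_B, B_inj_e0]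
  have hyX : ∃ k : ZMod 2, app (act y) X = X + k • inj a'' := by
    have hXa : bW (pj X) a'' = 0 := by
      rw [B_comm, B_inj_left, bW_comm] at hXp; exact hXp
    rw [hact, htm, decomp X, ha'']
    rw [ha''] at hXa
    rcases flat_table a hline (pj X) hXa (X (.inl 0)) (X (.inr 0)) with e | e
    · exact ⟨0, by rw [zero_smul, add_zero]; exact e⟩
    · exact ⟨1, by rw [one_smul]; exact e⟩
  obtain ⟨k, hk⟩ := hyX
  rw [br, bar, hy'', show c⁻¹ * y * c = c⁻¹ * y * c⁻¹⁻¹ by group, F.setup.act_conj hci hy.1,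
    app_mul, app_mul, F.setup.act_inv hc, inv_inv, ← hX, hk, app_add, app_smul, hX, app_inv_app,
    ← hce, app_inv_app, pj_add, pj_smul, pj_e0, smul_zero, add_zero, pj_inj]

end Frame

end CfsgLib.ConwayType59
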