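import Cfsg.Agent.ConwayType59.Pairs
import Cfsg.Agent.ConwayType59.Involution

/-!
Every involution in the centralizer of `z` is conjugate to one acting trivially in dimension six.
-/

set_option autoImplicit false
set_option synthInstance.maxSize 2000
set_option linter.unusedSectionVars false
set_option linter.unusedVariables false

namespace CfsgLib.ConwayType59

open Cfsg

/-- The standard root map in dimension six. -/
def rt (v : V6) : V6 := v + bW v w1 • w2 + bW v w2 • w1

/-- Membership in the line of the standard root map. -/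
def OnLine (a : V6) : Prop := a = 0 ∨ a = w1 ∨ a = w2 ∨ a = w1 + w2

instance (a : V6) : Decidable (OnLine a) := inferInstanceAs (Decidable (_ ∨ _))

theorem line_top : ∀ n : V6, qW n = 0 → bW n w1 = 0 → bW n w2 = 0 →
    ∀ m : V6, qW m = 0 → bW m w1 = 0 → bW m w2 = 0 → bW n m = 0 →
      OnLine n ∨ OnLine m ∨ OnLine (n + m) := by decide +kernel

theorem fix_rt : ∀ a : V6, rt a = a → bW a w1 = 0 ∧ bW a w2 = 0 := by decide +kernel

theorem flat_param : ∀ a : V6, (∀ b : V6, rt b = b → bW b a = 0) → OnLine a := by decide +kernel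

theorem root_table : ∀ a : V6, bW a w1 = 0 ∧ bW a w2 = 0 → ∀ v : V6, bW v w1 = 0 ∧ bW v w2 = 0 →
    qW a = bW a v → ∀ al : V6, bW al w1 = 0 ∧ bW al w2 = 0 → bW a al = qW v →
      OnLine a ∨ OnLine al ∨ OnLine (al + a) := by decide +kernel

theorem onLine_perp : ∀ a : V6, OnLine a → ∀ b : V6, bW b w1 = 0 → bW b w2 = 0 → bW b a = 0 := by
  decide +kernel

theorem qW_onLine : ∀ a : V6, OnLine a → qW a = 0 := by decide +kernel

/-- A root map with totally singular image has the standard shape, once a line of the image is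
standard. -/
theorem eq_rt {N : V6 → V6} (hadd : ∀ a b, N (a + b) = N a + N b)
    (hself : ∀ a b, bW (N a) b = bW a (N b)) (hNN : ∀ a, N (N a) = 0) (hts : ∀ a, qW (N a) = 0)
    (hal : ∀ a, bW (N a) a = 0)
    {v1 v2 : V6} (h1 : N v1 = w1) (h2 : N v2 = w2) (h12 : bW v1 w2 = 1) (h21 : bW v2 w1 = 1)
    (h11 : bW v1 w1 = 0) (h22 : bW v2 w2 = 0) (a : V6) :
    a + N a = rt a := by
  set M : V6 → V6 := fun a => N a + (bW a w1 • w2 + bW a w2 • w1) with hM
  suffices hz : M a = 0 by
    rw [hM] at hz
    rw [eq_of_vadd hz, rt, add_assoc]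
  have hsm : ∀ a b, bW (M a) b = bW a (M b) := by
    intro a b
    simp only [hM]
    rw [bW_add_left, bW_add_left, bW_smul_left, bW_smul_left, bW_add_right, bW_add_right, hself,
      bW_comm a (bW b w1 • w2), bW_comm a (bW b w2 • w1), bW_smul_left, bW_smul_left,
      bW_comm w2 b, bW_comm w1 b, bW_comm w2 a, bW_comm w1 a]
    ring
  have hMadd : ∀ a b, M (a + b) = M a + M b := by
    intro a b
    simp only [hM, hadd, bW_add_left, add_smul]
    abel
  have hperp : ∀ a, bW (N a) w1 = 0 ∧ bW (N a) w2 = 0 := by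
    intro a
    rw [hself, hself, ← h1, ← h2, hNN, hNN, bW_zero_right]
    exact ⟨rfl, rfl⟩
  have hMp : ∀ a, qW (M a) = 0 ∧ bW (M a) w1 = 0 ∧ bW (M a) w2 = 0 := by
    intro a
    obtain ⟨p1, p2⟩ := hperp a
    have hw : bW w1 w2 = 0 ∧ bW w2 w1 = 0 ∧ qW w1 = 0 ∧ qW w2 = 0 := by decide
    obtain ⟨e1, e2, e3, e4⟩ := hw
    simp only [hM]
    refine ⟨?_, ?_, ?_⟩
    · rw [qW_add, hts, bW_comm (N a), bW_add_left, bW_smul_left, bW_smul_left, bW_comm w2, bW_comm w1,
        p1, p2, mul_zero, mul_zero, add_zero, add_zero, zero_add]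
      rcases zmod_cases (bW a w1) with e | e <;> rcases zmod_cases (bW a w2) with e' | e' <;>
        simp [e, e', qW_zero, e3, e4, qW_add, e2]
    · simp [bW_add_left, bW_smul_left, p1, e2, bW_self]
    · simp [bW_add_left, bW_smul_left, p2, e1, bW_self]
  have hv1 : M v1 = 0 := by simp [hM, h1, h12, h11, vadd_self]
  have hv2 : M v2 = 0 := by simp [hM, h2, h21, h22, vadd_self]
  have hline : ∀ b, OnLine (M b) → M b = 0 := by
    intro b hb
    have c1 : bW (M b) v1 = 0 := by rw [hsm, hv1, bW_zero_right]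
    have c2 : bW (M b) v2 = 0 := by rw [hsm, hv2, bW_zero_right]
    rcases hb with e | e | e | e <;> rw [e] at c1 c2 ⊢
    · rw [bW_comm, h21] at c2; exact absurd c2 one_ne_zero
    · rw [bW_comm, h12] at c1; exact absurd c1 one_ne_zero
    · rw [bW_add_left, bW_comm w1, bW_comm w2, h11, h12, zero_add] at c1
      exact absurd c1 one_ne_zero
  by_contra hne
  obtain ⟨w, hw⟩ := exists_nonperp_six _ hne
  obtain ⟨q1, p11, p12⟩ := hMp a
  obtain ⟨q2, p21, p22⟩ := hMp w
  have hcross : bW (M a) (M w) = 0 := by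
    have := (hMp (a + w)).1
    rwa [hMadd, qW_add, q1, q2, zero_add, zero_add] at this
  rcases line_top _ q1 p11 p12 _ q2 p21 p22 hcross with h | h | h
  · exact hne (hline a h)
  · rw [hsm, hline w h, bW_zero_right] at hw
    exact zero_ne_one hw
  · rw [← hMadd] at h
    have h0 := hline _ h
    have hww : bW (M w) w = 0 := by
      simp only [hM]
      rw [bW_add_left, bW_add_left, bW_smul_left, bW_smul_left, bW_comm w2 w, bW_comm w1 w]
      rw [hal, zero_add, mul_comm, zmod_add_self]
    have := congrArg (fun t => bW t w) h0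
    simp only [hMadd, bW_add_left, bW_zero_left, hw, hww, add_zero] at this
    exact one_ne_zero this

end CfsgLib.ConwayType59
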