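import Cfsg.Agent.Classical.Orth.Index
import Cfsg.Agent.Classical.Orth.Forms
import Cfsg.Agent.Eq.Def_Classical

/-!
The hyperbolic quadratic space of dimension eight over the field with two elements, a fixed singular
vector in it and the hyperbolic space of dimension six on the perpendicular modulo that vector.
-/

set_option autoImplicit false

namespace CfsgLib.ConwayType59

open Cfsg CfsgLib.OrthGeo CfsgLib.Classical.Orth
open scoped Matrix

/-- The index set. -/
abbrev I8 : Type := Fin 4 ⊕ Fin 4

/-- The space of dimension eight. -/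
abbrev V : Type := I8 → ZMod 2

/-- The space of dimension six. -/
abbrev V6 : Type := Fin 3 ⊕ Fin 3 → ZMod 2

/-- The form in dimension six. -/
def qW (a : V6) : ZMod 2 :=
  a (.inl 0) * a (.inr 0) + a (.inl 1) * a (.inr 1) + a (.inl 2) * a (.inr 2)

/-- Its polar form. -/
def bW (a b : V6) : ZMod 2 :=
  a (.inl 0) * b (.inr 0) + a (.inr 0) * b (.inl 0) +
    (a (.inl 1) * b (.inr 1) + a (.inr 1) * b (.inl 1)) +
    (a (.inl 2) * b (.inr 2) + a (.inr 2) * b (.inl 2))

/-- Forgetting the first hyperbolic pair. -/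
def pj (v : V) : V6 := fun i => v (Sum.map Fin.succ Fin.succ i)

/-- The space of dimension six as the complement of the first pair. -/
def inj (a : V6) : V :=
  Sum.elim (Fin.cons 0 (fun i => a (.inl i))) (Fin.cons 0 (fun i => a (.inr i)))

/-- The form in dimension eight. -/
def q (v : V) : ZMod 2 := v (.inl 0) * v (.inr 0) + qW (pj v)

/-- Its polar form. -/
def B (u v : V) : ZMod 2 :=
  u (.inl 0) * v (.inr 0) + u (.inr 0) * v (.inl 0) + bW (pj u) (pj v)

/-- The standard singular vector. -/
def e0 : V := Sum.elim ![1, 0, 0, 0] ![0, 0, 0, 0]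

/-- Its partner. -/
def e1 : V := Sum.elim ![0, 0, 0, 0] ![1, 0, 0, 0]

/-- Singular vectors spanning a line. -/
def w1 : V6 := Sum.elim ![1, 0, 0] ![0, 0, 0]
def w2 : V6 := Sum.elim ![0, 1, 0] ![0, 0, 0]
/-- A pair spanning an anisotropic line. -/
def a0 : V6 := Sum.elim ![1, 0, 0] ![1, 0, 0]
def b0 : V6 := Sum.elim ![1, 1, 0] ![0, 1, 0]

theorem zmod_cases : ∀ a : ZMod 2, a = 0 ∨ a = 1 := by decide
theorem zmod_add_self : ∀ a : ZMod 2, a + a = 0 := by decide
theorem zmod_eq_of_add : ∀ a b : ZMod 2, a + b = 0 → a = b := by decide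
theorem zmod_sq : ∀ a : ZMod 2, a * a = a := by decide

theorem two_zero : (2 : ZMod 2) = 0 := rfl

theorem vadd_self {ι : Type} (v : ι → ZMod 2) : v + v = 0 := funext fun _ => zmod_add_self _

theorem vadd_cancel {ι : Type} (u v : ι → ZMod 2) : u + v + v = u := by
  rw [add_assoc, vadd_self, add_zero]

theorem vadd_cancel_left {ι : Type} (u v : ι → ZMod 2) : u + (u + v) = v := by
  rw [← add_assoc, vadd_self, zero_add]

theorem eq_of_vadd {ι : Type} {u v : ι → ZMod 2} (h : u + v = 0) : u = v :=
  funext fun i => zmod_eq_of_add _ _ (congrFun h i)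

theorem vsub_eq {ι : Type} (u v : ι → ZMod 2) : u - v = u + v := by
  rw [sub_eq_iff_eq_add, vadd_cancel]

theorem bW_comm (a b : V6) : bW a b = bW b a := by simp only [bW]; ring

theorem bW_add_left (a a' b : V6) : bW (a + a') b = bW a b + bW a' b := by
  simp only [bW, Pi.add_apply]; ring

theorem bW_add_right (a b b' : V6) : bW a (b + b') = bW a b + bW a b' := by
  rw [bW_comm, bW_add_left, bW_comm b, bW_comm b']

theorem bW_smul_left (c : ZMod 2) (a b : V6) : bW (c • a) b = c * bW a b := by
  simp only [bW, Pi.smul_apply, smul_eq_mul]; ring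

theorem bW_zero_left (b : V6) : bW 0 b = 0 := by simp [bW]

theorem bW_zero_right (a : V6) : bW a 0 = 0 := by simp [bW]

theorem bW_self (a : V6) : bW a a = 0 := by
  simp only [bW]
  linear_combination zmod_add_self (a (.inl 0) * a (.inr 0)) +
    zmod_add_self (a (.inl 1) * a (.inr 1)) + zmod_add_self (a (.inl 2) * a (.inr 2))

theorem qW_add (a b : V6) : qW (a + b) = qW a + qW b + bW a b := by
  simp only [qW, bW, Pi.add_apply]; ring

theorem qW_zero : qW 0 = 0 := by simp [qW]

theorem pj_add (u v : V) : pj (u + v) = pj u + pj v := rfl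

theorem pj_smul (c : ZMod 2) (v : V) : pj (c • v) = c • pj v := rfl

theorem pj_zero : pj (0 : V) = 0 := rfl

theorem pj_inj (a : V6) : pj (inj a) = a := by
  funext i; rcases i with i | i <;> rfl

theorem inj_inl (a : V6) : inj a (.inl 0) = 0 := rfl
theorem inj_inr (a : V6) : inj a (.inr 0) = 0 := rfl

theorem inj_add (a b : V6) : inj (a + b) = inj a + inj b := by
  funext i; rcases i with i | i <;> refine Fin.cases ?_ (fun j => ?_) i <;> simp [inj]

theorem inj_zero : inj 0 = 0 := by
  funext i; rcases i with i | i <;> refine Fin.cases ?_ (fun j => ?_) i <;> simp [inj]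

theorem inj_smul (c : ZMod 2) (a : V6) : inj (c • a) = c • inj a := by
  funext i; rcases i with i | i <;> refine Fin.cases ?_ (fun j => ?_) i <;> simp [inj]

theorem B_comm (u v : V) : B u v = B v u := by simp only [B, bW_comm (pj u)]; ring

theorem B_add_left (u u' v : V) : B (u + u') v = B u v + B u' v := by
  simp only [B, pj_add, bW_add_left, Pi.add_apply]; ring

theorem B_add_right (u v v' : V) : B u (v + v') = B u v + B u v' := by
  rw [B_comm, B_add_left, B_comm v, B_comm v']

theorem B_smul_left (c : ZMod 2) (u v : V) : B (c • u) v = c * B u v := by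
  simp only [B, pj_smul, bW_smul_left, Pi.smul_apply, smul_eq_mul]; ring

theorem B_smul_right (c : ZMod 2) (u v : V) : B u (c • v) = c * B u v := by
  rw [B_comm, B_smul_left, B_comm]

theorem B_zero_left (v : V) : B 0 v = 0 := by simp [B, pj_zero, bW_zero_left]

theorem B_zero_right (v : V) : B v 0 = 0 := by rw [B_comm, B_zero_left]

theorem q_zero : q 0 = 0 := by simp [q, pj_zero, qW_zero]

theorem q_add (u v : V) : q (u + v) = q u + q v + B u v := by
  simp only [q, B, pj_add, qW_add, Pi.add_apply]; ring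

theorem B_self (v : V) : B v v = 0 := by
  simp only [B, bW_self, add_zero]
  linear_combination zmod_add_self (v (.inl 0) * v (.inr 0))

theorem q_inj (a : V6) : q (inj a) = qW a := by simp [q, pj_inj, inj_inl]

theorem B_inj (a b : V6) : B (inj a) (inj b) = bW a b := by simp [B, pj_inj, inj_inl, inj_inr]

theorem B_inj_left (a : V6) (v : V) : B (inj a) v = bW a (pj v) := by
  simp [B, pj_inj, inj_inl, inj_inr]

theorem pj_e0 : pj e0 = 0 := by decide
theorem pj_e1 : pj e1 = 0 := by decide
theorem q_e0 : q e0 = 0 := by decide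
theorem q_e1 : q e1 = 0 := by decide
theorem B_e0_e1 : B e0 e1 = 1 := by decide
theorem B_e1_e0 : B e1 e0 = 1 := by decide
theorem e0_ne : e0 ≠ 0 := by decide

theorem B_e0 (v : V) : B v e0 = v (.inr 0) := by
  simp [B, pj_e0, bW_zero_right, show e0 (.inr 0) = 0 from rfl, show e0 (.inl 0) = 1 from rfl]

theorem B_e1 (v : V) : B v e1 = v (.inl 0) := by
  simp [B, pj_e1, bW_zero_right, show e1 (.inr 0) = 1 from rfl, show e1 (.inl 0) = 0 from rfl]

theorem B_inj_e0 (a : V6) : B (inj a) e0 = 0 := by rw [B_e0, inj_inr]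
theorem B_inj_e1 (a : V6) : B (inj a) e1 = 0 := by rw [B_e1, inj_inl]

theorem decomp (v : V) : v = v (.inl 0) • e0 + v (.inr 0) • e1 + inj (pj v) := by
  funext i
  rcases i with i | i <;> refine Fin.cases ?_ (fun j => ?_) i <;>
    simp [e0, e1, inj, pj] <;> fin_cases j <;> simp

/-- The form of the statement. -/
abbrev Q8 : V → ZMod 2 := quadFormPlus 4 (ZMod 2)

theorem Q8_eq (v : V) : Q8 v = q v := by
  simp only [quadFormPlus, q, qW, pj, Fin.sum_univ_four, Sum.map_inl, Sum.map_inr]
  rw [show Fin.succ (0 : Fin 3) = 1 from rfl, show Fin.succ (1 : Fin 3) = 2 from rfl,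
    show Fin.succ (2 : Fin 3) = 3 from rfl]
  ring

theorem hnd : Geo.IsNondegenerateQuadraticForm Q8 := isNondegQF_quadFormPlus 4

theorem bform_eq (u v : V) : bform hnd u v = B u v := by
  have h := OrthGeo.q_add hnd u v
  rw [Q8_eq, Q8_eq, Q8_eq, q_add] at h
  exact (add_left_cancel h).symm

theorem hexc : ¬ (Nat.card (ZMod 2) = 2 ∧ Fintype.card I8 = 4) := by simp

/-- The isometry group. -/
abbrev Iso : Type := ↥(isometryGroup (ZMod 2) Q8)

local notation "Om" => Omega (ZMod 2) Q8

/-- The action. -/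
def app (g : Iso) (v : V) : V := ((g : GL I8 (ZMod 2)) : Matrix I8 I8 (ZMod 2)) *ᵥ v

theorem app_one (v : V) : app 1 v = v := by simp [app]

theorem app_mul (g h : Iso) (v : V) : app (g * h) v = app g (app h v) := by
  simp [app, Matrix.mulVec_mulVec]

theorem app_add (g : Iso) (u v : V) : app g (u + v) = app g u + app g v := Matrix.mulVec_add _ _ _

theorem app_zero (g : Iso) : app g 0 = 0 := Matrix.mulVec_zero _

theorem app_smul (g : Iso) (c : ZMod 2) (v : V) : app g (c • v) = c • app g v :=
  Matrix.mulVec_smul _ _ _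

theorem app_inv_app (g : Iso) (v : V) : app g⁻¹ (app g v) = v := by
  rw [← app_mul, inv_mul_cancel, app_one]

theorem app_app_inv (g : Iso) (v : V) : app g (app g⁻¹ v) = v := by
  rw [← app_mul, mul_inv_cancel, app_one]

theorem app_injective (g : Iso) : Function.Injective (app g) := fun u v h => by
  rw [← app_inv_app g u, h, app_inv_app]

theorem app_q (g : Iso) (v : V) : q (app g v) = q v := by
  rw [← Q8_eq, ← Q8_eq]; exact mem_isometryGroup.1 g.2 v

theorem app_B (g : Iso) (u v : V) : B (app g u) (app g v) = B u v := by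
  have h := q_add (app g u) (app g v)
  rw [← app_add, app_q, app_q, app_q, q_add] at h
  exact (add_left_cancel h).symm

theorem iso_ext {g h : Iso} (H : ∀ v, app g v = app h v) : g = h := Subtype.ext (gl_ext H)

/-- The Eichler map. -/
def E (s w x : V) : V := x + B x s • w + (B x w + q w * B x s) • s

theorem Q8_ne {a : V} (ha : q a = 1) : Q8 a ≠ 0 := by rw [Q8_eq, ha]; exact one_ne_zero

/-- The orthogonal transvection. -/
noncomputable def rf (a : V) (ha : q a = 1) : Iso :=
  refl hnd (Q8_ne ha)

theorem app_rf (a : V) (ha : q a = 1) (x : V) : app (rf a ha) x = x + B x a • a := by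
  show ((reflection hnd (Q8_ne ha) : GL I8 (ZMod 2)) : Matrix I8 I8 (ZMod 2)) *ᵥ x = _
  rw [reflection_mulVec, bform_eq, Q8_eq, ha, inv_one, one_mul, vsub_eq, B_comm]

theorem rf_not_mem (a : V) (ha : q a = 1) : rf a ha ∉ Omega (ZMod 2) Q8 := by
  intro h
  have h1 := (mem_omega_iff_even hnd two_zero hexc (rf a ha)).1 h
  rw [rf, coe_refl hnd] at h1
  exact (invariants_refl hnd (Q8_ne ha)).1 h1

theorem index_two : (Omega (ZMod 2) Q8).index = 2 :=
  index_omega_even hnd two_zero (by simp) hexc

theorem rf_mul_rf (a b : V) (ha : q a = 1) (hb : q b = 1) :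
    rf a ha * rf b hb ∈ Omega (ZMod 2) Q8 :=
  (Subgroup.mul_mem_iff_of_index_two index_two).2
    (iff_of_false (rf_not_mem a ha) (rf_not_mem b hb))

theorem app_E (f : Iso) (s w x : V) : app f (E s w x) = E (app f s) (app f w) (app f x) := by
  simp only [E, app_add, app_smul, app_B, app_q]

theorem E_comp {s w w' : V} (hs : q s = 0) (hw : B s w = 0) (hw' : B s w' = 0) (x : V) :
    E s w (E s w' x) = E s (w + w') x := by
  simp only [E, B_add_left, B_add_right, B_smul_left, B_self s, B_comm w' s, hw', hw, q_add,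
    B_comm w w', mul_zero, add_zero]
  match_scalars <;> ring

theorem E_zero (s x : V) : E s 0 x = x := by simp [E, B_zero_right, q_zero]

/-! ### The induced map on the space of dimension six. -/

/-- The induced map. -/
def bar (f : Iso) (a : V6) : V6 := pj (app f (inj a))

/-- The translation part. -/
def par (f : Iso) : V6 := pj (app f e1)

theorem bar_one (a : V6) : bar 1 a = a := by rw [bar, app_one, pj_inj]

theorem bar_add (f : Iso) (a b : V6) : bar f (a + b) = bar f a + bar f b := by
  rw [bar, inj_add, app_add, pj_add]; rfl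

theorem bar_zero (f : Iso) : bar f 0 = 0 := by rw [bar, inj_zero, app_zero, pj_zero]

theorem bar_smul (f : Iso) (c : ZMod 2) (a : V6) : bar f (c • a) = c • bar f a := by
  rw [bar, inj_smul, app_smul, pj_smul]; rfl

theorem app_inj {f : Iso} (h0 : app f e0 = e0) (a : V6) :
    app f (inj a) = B (app f (inj a)) e1 • e0 + inj (bar f a) := by
  have h1 : app f (inj a) (.inr 0) = 0 := by
    rw [← B_e0 (app f (inj a))]
    nth_rewrite 1 [← h0]
    rw [app_B, B_inj_e0]
  conv_lhs => rw [decomp (app f (inj a))]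
  rw [h1, zero_smul, add_zero, B_e1]; rfl

theorem pj_app {f : Iso} (h0 : app f e0 = e0) {v : V} (hv : B v e0 = 0) :
    pj (app f v) = bar f (pj v) := by
  conv_lhs => rw [decomp v]
  rw [← B_e0 v, hv, zero_smul, add_zero, app_add, app_smul, h0, pj_add, pj_smul, pj_e0, smul_zero,
    zero_add]
  rfl

theorem bar_mul {f f' : Iso} (h : app f e0 = e0) (h' : app f' e0 = e0) (a : V6) :
    bar (f * f') a = bar f (bar f' a) := by
  rw [bar, app_mul, pj_app h (by rw [← h', app_B, B_inj_e0])]; rfl

theorem bar_q {f : Iso} (h0 : app f e0 = e0) (a : V6) : qW (bar f a) = qW a := by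
  have := app_q f (inj a)
  rw [app_inj h0, q_add, B_smul_left, B_comm e0, B_inj_e0, mul_zero, add_zero, q_inj, q_inj] at this
  rcases zmod_cases (B (app f (inj a)) e1) with e | e <;> rw [e] at this <;>
    simpa [q_zero, q_e0] using this

theorem bar_B {f : Iso} (h0 : app f e0 = e0) (a b : V6) : bW (bar f a) (bar f b) = bW a b := by
  have h := qW_add (bar f a) (bar f b)
  rw [← bar_add, bar_q h0, bar_q h0, bar_q h0, qW_add] at h
  exact (add_left_cancel h).symm

theorem bar_inv {f : Iso} (h0 : app f e0 = e0) (a : V6) : bar f⁻¹ (bar f a) = a := by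
  rw [← bar_mul (by conv_lhs => rw [← h0, app_inv_app]) h0, inv_mul_cancel, bar_one]

theorem bar_injective {f : Iso} (h0 : app f e0 = e0) : Function.Injective (bar f) := fun a b e => by
  rw [← bar_inv h0 a, e, bar_inv h0]

/-- An isometry trivial on the space of dimension six is an Eichler map. -/
theorem eq_E {f : Iso} (h0 : app f e0 = e0) (hb : ∀ a, bar f a = a) (x : V) :
    app f x = E e0 (inj (par f)) x := by
  have hr : app f e1 (.inr 0) = 1 := by
    rw [← B_e0 (app f e1)]
    nth_rewrite 1 [← h0]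
    rw [app_B, B_e1_e0]
  have he1 : app f e1 = qW (par f) • e0 + e1 + inj (par f) := by
    have hd := decomp (app f e1)
    rw [hr, one_smul] at hd
    have hq := app_q f e1
    have hl : app f e1 (.inl 0) = qW (par f) := by
      rw [q, q_e1, hr, mul_one] at hq
      exact zmod_eq_of_add _ _ hq
    rw [hl] at hd
    exact hd
  have hinj : ∀ a, app f (inj a) = bW a (par f) • e0 + inj a := by
    intro a
    have e := app_inj h0 a
    rw [hb] at e
    have h := app_B f (inj a) e1
    rw [B_inj_e1] at h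
    conv_lhs at h => rw [e, he1]
    simp only [B_add_left, B_add_right, B_smul_left, B_smul_right, B_self, B_inj, B_inj_e0,
      B_inj_e1, B_comm e0 (inj (par f)), B_e0_e1, mul_zero, mul_one, add_zero, zero_add] at h
    rwa [zmod_eq_of_add _ _ h] at e
  have key : ∀ c d : ZMod 2, ∀ a : V6, app f (c • e0 + d • e1 + inj a) =
      E e0 (inj (par f)) (c • e0 + d • e1 + inj a) := by
    intro c d a
    rw [app_add, app_add, app_smul, app_smul, h0, he1, hinj]
    simp only [E, B_add_left, B_smul_left, B_self, B_e1_e0, B_inj_e0, B_comm e0 (inj (par f)),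
      B_comm e1 (inj (par f)), B_inj_e1, B_inj, q_inj, mul_zero, mul_one, add_zero, zero_add]
    match_scalars <;> ring
  rw [decomp x]
  exact key _ _ _

theorem E_e1 (w : V6) : E e0 (inj w) e1 = e1 + inj w + qW w • e0 := by
  simp [E, B_e1_e0, B_comm e1 (inj w), B_inj_e1, q_inj]

theorem pj_E (w : V6) (v : V) : pj (E e0 (inj w) v) = pj v + B v e0 • w := by
  simp [E, pj_add, pj_smul, pj_inj, pj_e0]

theorem par_eq_of_E {f : Iso} {w : V6} (h : ∀ x, app f x = E e0 (inj w) x) : par f = w := by
  rw [par, h, pj_E, pj_e1, zero_add, B_e1_e0, one_smul]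

theorem bar_eq_of_E {f : Iso} {w : V6} (h : ∀ x, app f x = E e0 (inj w) x) (a : V6) :
    bar f a = a := by
  rw [bar, h, pj_E, B_inj_e0, zero_smul, add_zero, pj_inj]

theorem exists_eichler (w : V6) : ∃ f ∈ Om, ∀ x, app f x = E e0 (inj w) x := by
  have hs' : Q8 e0 = 0 := by rw [Q8_eq, q_e0]
  have hw' : bform hnd e0 (inj w) = 0 := by rw [bform_eq, B_comm, B_inj_e0]
  obtain ⟨f, hf, e⟩ := eichler_mem_omega hnd (by simp) hs' hw'
  refine ⟨f, hf, fun x => ?_⟩
  show ((f : GL I8 (ZMod 2)) : Matrix I8 I8 (ZMod 2)) *ᵥ x = _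
  rw [show (f : GL I8 (ZMod 2)) = _ from e, eichler_mulVec, bform_eq, bform_eq, Q8_eq,
    B_comm (inj w) x, B_comm e0 x, vsub_eq, vsub_eq]
  simp only [E, add_smul]
  abel

/-- The transvection in dimension six. -/
def rfW (m a : V6) : V6 := a + bW a m • m

theorem bar_rf {m : V6} (hm : qW m = 1) :
    app (rf (inj m) ((q_inj m).trans hm)) e0 = e0 ∧
      ∀ a, bar (rf (inj m) ((q_inj m).trans hm)) a = rfW m a := by
  constructor
  · rw [app_rf, B_comm, B_inj_e0, zero_smul, add_zero]
  · intro a
    rw [bar, app_rf, B_inj, pj_add, pj_smul, pj_inj, pj_inj]; rfl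

/-- Products of two transvections are realised. -/
theorem exists_pair_map {m n : V6} (hm : qW m = 1) (hn : qW n = 1) :
    ∃ f ∈ Om, app f e0 = e0 ∧ ∀ a, bar f a = rfW m (rfW n a) := by
  obtain ⟨h1, e1'⟩ := bar_rf hm
  obtain ⟨h2, e2'⟩ := bar_rf hn
  refine ⟨_, rf_mul_rf (inj m) (inj n) ((q_inj m).trans hm) ((q_inj n).trans hn), ?_, fun a => ?_⟩
  · rw [app_mul, h2, h1]
  · rw [bar_mul h1 h2, e1', e2']

theorem rfW_fix {m a : V6} (h : bW a m = 0) : rfW m a = a := by rw [rfW, h, zero_smul, add_zero]

end CfsgLib.ConwayType59
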