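import Cfsg.Agent.ConwayType59.Movers

/-!
The standard involutions: their centralizers have a Sylow 2-subgroup in which `z` is distinguished.
-/

set_option autoImplicit false
set_option synthInstance.maxSize 2000
set_option linter.unusedSectionVars false
set_option linter.unusedVariables false

namespace CfsgLib.ConwayType59

open Cfsg

/-- A nontrivial subgroup of a 2-group normalized by it contains a central element. -/
theorem exists_central {G : Type*} [Group G] [Finite G] {S A : Subgroup G} (hS : IsPGroup 2 ↥S)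
    (hA : A ≤ S) (hn : ∀ x ∈ S, ∀ a ∈ A, x * a * x⁻¹ ∈ A) (hne : A ≠ ⊥) :
    ∃ c ∈ A, c ≠ 1 ∧ ∀ x ∈ S, x * c = c * x := by
  haveI : Fact (Nat.Prime 2) := ⟨Nat.prime_two⟩
  have hAp : IsPGroup 2 ↥A := hS.to_le hA
  letI : MulAction ↥S ↥A :=
    { smul := fun q y => ⟨(q : G) * y * (q : G)⁻¹, hn q q.2 y y.2⟩
      one_smul := fun y => Subtype.ext (show ((1 : ↥S) : G) * y * ((1 : ↥S) : G)⁻¹ = y by simp)
      mul_smul := fun a b y => Subtype.ext (show ((a * b : ↥S) : G) * y * ((a * b : ↥S) : G)⁻¹ =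
        (a : G) * ((b : G) * y * (b : G)⁻¹) * (a : G)⁻¹ by simp [mul_assoc]) }
  have hA2 : 2 ∣ Nat.card ↥A := by
    obtain ⟨n, hn'⟩ := IsPGroup.iff_card.1 hAp
    rw [hn']
    refine dvd_pow_self 2 ?_
    rintro rfl
    rw [pow_zero] at hn'
    exact hne (Subgroup.card_eq_one.1 hn')
  obtain ⟨y, hyf, hy1⟩ := hS.exists_fixed_point_of_prime_dvd_card_of_fixed_point
    ↥A hA2 (a := 1) (fun q => Subtype.ext (show (q : G) * ((1 : ↥A) : G) * (q : G)⁻¹ = ((1 : ↥A) : G) by simp))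
  exact ⟨y, y.2, fun e => hy1 (Subtype.ext e.symm), fun x hx =>
    mul_inv_eq_iff_eq_mul.1 (congrArg Subtype.val (hyf ⟨x, hx⟩) : x * (y : G) * x⁻¹ = y)⟩

variable {G : Type*} [Group G] [Finite G] {z s g : G} {Q : Subgroup G} {pr : G → V} {act : G → Iso}

/-- A maximal 2-subgroup of the centralizer of `z` and `y` in which `z` is distinguished. -/
structure Dist (z : G) (Q : Subgroup G) (y : G) (S : Subgroup G) : Prop where
  comm : ∀ x ∈ S, x * z = z * x ∧ x * y = y * x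
  twoGroup : IsPGroup 2 ↥S
  maximal : ∀ T : Subgroup G, S ≤ T → IsPGroup 2 ↥T →
    (∀ x ∈ T, x * z = z * x ∧ x * y = y * x) → T = S
  contains : ∀ x ∈ Q, x * y = y * x → x ∈ S
  central : ∀ x ∈ Q, x ∈ S → (∀ t ∈ S, t * x = x * t) → x = 1 ∨ x = z

namespace Frame

variable (F : Frame z s g Q pr act)
include F

theorem exists_dist {a b : V6} (hd : Std z s act a b) {y : G}
    (hy : IsPair Q z s g pr act a b y) : ∃ S, Dist z Q y S := by
  haveI : Fact (Nat.Prime 2) := ⟨Nat.prime_two⟩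
  set W := Subgroup.centralizer ({z} : Set G) ⊓ Subgroup.centralizer ({y} : Set G) with hW'
  have hW : ∀ {m : G}, m ∈ W ↔ m * z = z * m ∧ m * y = y * m := fun {m} => by
    rw [hW', Subgroup.mem_inf, mem_cent_iff, mem_cent_iff]
  let N0 : Subgroup G :=
    { carrier := {c | c ∈ W ∧ Cs z s c ∧ ∀ e, br act c e = e}
      one_mem' := ⟨W.one_mem, F.cs_one, fun e => by rw [br, F.setup.act_one, bar_one]⟩
      mul_mem' := fun {c d} hc hd => ⟨W.mul_mem hc.1 hd.1, F.cs_mul hc.2.1 hd.2.1, fun e => by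
        rw [F.br_mul hc.2.1 hd.2.1, hd.2.2, hc.2.2]⟩
      inv_mem' := fun {c} hc => ⟨W.inv_mem hc.1, F.cs_inv hc.2.1, fun e => by
        conv_lhs => rw [← hc.2.2 e, F.br_inv hc.2.1]⟩ }
  have hN0W : N0 ≤ W := fun c hc => hc.1
  have hN0p : IsPGroup 2 ↥N0 := by
    rintro ⟨c, hcW, hcC, hcb⟩
    refine ⟨2, Subtype.ext ?_⟩
    show c ^ (2 ^ 2) = 1
    obtain ⟨u, x, hu, hx, rfl⟩ := F.exists_decomp hcC hcb
    rw [show (2 : ℕ) ^ 2 = 2 + 2 from rfl, pow_add, sq, F.sq_pair hu hx, F.pwpw_mul, zmod_add_self,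
      zmod_add_self, pw_zero, pw_zero, one_mul]
  obtain ⟨P, hP⟩ := (hN0p.comap_subtype (K := W)).exists_le_sylow
  refine ⟨(P : Subgroup ↥W).map W.subtype, ?_⟩
  set S := (P : Subgroup ↥W).map W.subtype with hS
  have hSW : S ≤ W := Subgroup.map_subtype_le _
  have hN0S : N0 ≤ S := fun c hc => ⟨⟨c, hN0W hc⟩, hP (show (⟨c, hN0W hc⟩ : ↥W) ∈ N0.subgroupOf W from hc), rfl⟩
  have hSP : S.subgroupOf W = (P : Subgroup ↥W) :=
    Subgroup.comap_map_eq_self_of_injective W.subtype_injective _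
  have hQN : ∀ x ∈ Q, x * y = y * x → x ∈ N0 := fun x hx e =>
    ⟨hW.2 ⟨F.setup.comm_Q hx, e⟩, F.x_cs (F.x_of_perp hx ((F.comm_pair_iff hd.ne hy hx).1 e).1),
      fun c => by rw [br, F.setup.act_Q hx, bar_one]⟩
  refine ⟨fun x hx => hW.1 (hSW hx), P.isPGroup'.map _, ?_, fun x hx e => hN0S (hQN x hx e), ?_⟩
  · intro T hST hT hTc
    have hTW : T ≤ W := fun x hx => hW.2 (hTc x hx)
    have e := P.is_maximal' (hT.comap_subtype (K := W))
      (by rw [← hSP]; exact Subgroup.comap_mono hST)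
    rw [hS, ← e]
    exact (Subgroup.map_comap_eq_self (by rw [W.range_subtype]; exact hTW)).symm
  intro x hxQ hxS hcen
  have hxy := (hW.1 (hSW hxS)).2
  have hxP := (F.comm_pair_iff hd.ne hy hxQ).1 hxy
  have hX := F.x_of_perp hxQ hxP.1
  have hpx : px pr x = 0 := by
    by_contra hne
    obtain ⟨v, hv⟩ := exists_nonperp_six _ hne
    obtain ⟨m, hm, hmy, hmb, hma⟩ := F.exists_translation hd hy v
    have hmS : m ∈ S := hN0S ⟨hW.2 ⟨hm.1, hmy⟩, hm, hmb⟩
    have e := F.setup.act_pr m hm.1 x hxQ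
    rw [mul_inv_eq_iff_eq_mul.2 (hcen m hmS), hma, E, hxP.1] at e
    simp only [zero_smul, add_zero, mul_zero, left_eq_add] at e
    rw [B_comm, B_inj_left, bW_comm, show bW (pj (pr x)) v = 1 from hv, one_smul] at e
    exact e0_ne e
  obtain ⟨i, j, rfl⟩ := F.px_eq_zero hX hpx
  rcases zmod_cases i with rfl | rfl
  · rcases zmod_cases j with rfl | rfl
    · left; rw [pw_zero, pw_zero, one_mul]
    · right; rw [pw_zero, pw_one, one_mul]
  exfalso
  have hSs : ∀ t ∈ S, t * s = s * t := by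
    intro t ht
    have e := hcen t ht
    rw [pw_one, ← mul_assoc, mul_assoc s (pw z j) t,
      ← pw_comm (c := t) (d := z) (hW.1 (hSW ht)).1, ← mul_assoc] at e
    exact mul_right_cancel e
  set H := W ⊓ Subgroup.centralizer ({s} : Set G) with hH'
  have hH : ∀ {m : G}, m ∈ H ↔ m ∈ W ∧ m * s = s * m := fun {m} => by
    rw [hH', Subgroup.mem_inf, mem_cent_iff]
  have hz : ∀ {c : G}, c ∈ W → c * z * c⁻¹ = z := fun hc => by
    rw [(hW.1 hc).1, mul_inv_cancel_right]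
  let K : Subgroup G :=
    { carrier := {c | c ∈ W ∧ (c * s * c⁻¹ = s ∨ c * s * c⁻¹ = s * z)}
      one_mem' := ⟨W.one_mem, Or.inl (by group)⟩
      mul_mem' := fun {c d} hc hd' => ⟨W.mul_mem hc.1 hd'.1, by
        rw [show c * d * s * (c * d)⁻¹ = c * (d * s * d⁻¹) * c⁻¹ by group]
        rcases hd'.2 with e | e <;> rw [e]
        · exact hc.2
        · rw [show c * (s * z) * c⁻¹ = c * s * c⁻¹ * (c * z * c⁻¹) by group, hz hc.1]
          rcases hc.2 with e' | e' <;> rw [e']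
          · exact Or.inr rfl
          · exact Or.inl (by rw [mul_assoc, F.setup.z_sq, mul_one])⟩
      inv_mem' := fun {c} hc => ⟨W.inv_mem hc.1, by
        rcases hc.2 with e | e
        · left
          nth_rewrite 1 [← e]
          group
        · right
          calc c⁻¹ * s * c⁻¹⁻¹ = c⁻¹ * (s * z * z) * c⁻¹⁻¹ := by rw [mul_assoc s, F.setup.z_sq, mul_one]
            _ = c⁻¹ * (c * s * c⁻¹ * z) * c⁻¹⁻¹ := by rw [← e]
            _ = s * (c⁻¹ * z * c⁻¹⁻¹) := by group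
            _ = s * z := by rw [hz (W.inv_mem hc.1)]⟩ }
  obtain ⟨m, hmz, hmy, hms⟩ := F.exists_swap hd hy
  have hmK : m ∈ K := ⟨hW.2 ⟨hmz, hmy⟩, Or.inr hms⟩
  have hHK : H ≤ K := fun c hc => ⟨(hH.1 hc).1, Or.inl (mul_inv_eq_iff_eq_mul.2 (hH.1 hc).2)⟩
  have hsz : s * z ≠ s := fun e => F.setup.z_ne (mul_eq_left.1 e)
  have h2 : H.relIndex K = 2 := by
    rw [Subgroup.relIndex, Subgroup.index_eq_two_iff]
    refine ⟨⟨m, hmK⟩, fun c => ?_⟩
    have key : ∀ {d : G}, d ∈ K → (d ∈ H ↔ d * s * d⁻¹ = s) := fun {d} hd' =>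
      ⟨fun h => mul_inv_eq_iff_eq_mul.2 (hH.1 h).2, fun h => hH.2 ⟨hd'.1, mul_inv_eq_iff_eq_mul.1 h⟩⟩
    simp only [Subgroup.mem_subgroupOf, Subgroup.coe_mul]
    rw [key c.2, key (K.mul_mem c.2 hmK),
      show (c : G) * m * s * ((c : G) * m)⁻¹ = (c : G) * (m * s * m⁻¹) * (c : G)⁻¹ by group, hms,
      show (c : G) * (s * z) * (c : G)⁻¹ = (c : G) * s * (c : G)⁻¹ * ((c : G) * z * (c : G)⁻¹) by group,
      hz c.2.1]
    rcases c.2.2 with e | e <;> rw [e]
    · exact Or.inr ⟨rfl, hsz⟩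
    · exact Or.inl ⟨by rw [mul_assoc, F.setup.z_sq, mul_one], hsz⟩
  have hSH : S ≤ H := fun t ht => hH.2 ⟨hSW ht, hSs t ht⟩
  have hdvd : 2 ∣ S.relIndex W := by
    rw [← Subgroup.relIndex_mul_relIndex S H W hSH inf_le_left,
      ← Subgroup.relIndex_mul_relIndex H K W hHK (fun c hc => hc.1), h2]
    exact ⟨S.relIndex H * K.relIndex W, by ring⟩
  rw [Subgroup.relIndex, hSP] at hdvd
  exact P.not_dvd_index hdvd

theorem z_mem_dist {y : G} (hyz : y * z = z * y) {S : Subgroup G} (hS : Dist z Q y S) : z ∈ S :=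
  hS.contains z F.setup.z_mem hyz.symm

theorem isLarge : IsLargeExtraspecial Q :=
  LargeExtraspecial.isLarge_of_conj_mem F.setup.setting
    (by rw [F.setup.card_Q]; norm_num) g (by rw [F.g_z]; exact F.s_mem) (by rw [F.g_z]; exact F.s_ne_z)

/-- A conjugation between two distinguished subgroups fixes `z`. -/
theorem fix_z {a1 b1 a2 b2 : V6} (h1 : Std z s act a1 b1) (h2 : Std z s act a2 b2) {y1 y2 : G}
    (hy1 : IsPair Q z s g pr act a1 b1 y1) (hy2 : IsPair Q z s g pr act a2 b2 y2)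
    {S1 S2 : Subgroup G} (hS1 : Dist z Q y1 S1) (hS2 : Dist z Q y2 S2) {k : G}
    (hk : k * y2 * k⁻¹ = y1) (hmap : ∀ x, x ∈ S2 ↔ k * x * k⁻¹ ∈ S1) : k * z * k⁻¹ = z := by
  by_contra hne
  have hz2 := F.z_mem_dist (F.pair_cs hy2).1 hS2
  set z' := k * z * k⁻¹ with hz'
  have hz'S : z' ∈ S1 := (hmap z).1 hz2
  have hback : ∀ {x}, x ∈ S1 → k⁻¹ * x * k ∈ S2 := fun {x} hx => by
    rw [hmap, show k * (k⁻¹ * x * k) * k⁻¹ = x by group]; exact hx
  have hz'c : ∀ t ∈ S1, t * z' = z' * t := fun t ht => by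
    have e := (hS2.comm _ (hback ht)).1
    calc t * z' = k * (k⁻¹ * t * k * z) * k⁻¹ := by rw [hz']; group
      _ = z' * t := by rw [e, hz']; group
  have hz'1 : z' ≠ 1 := fun e => F.setup.z_ne (by
    rw [show z = k⁻¹ * z' * k by rw [hz']; group, e]; group)
  have hz'Q : z' ∉ Q := fun hQ => ((hS1.central z' hQ hz'S hz'c).elim hz'1 hne)
  -- the elements of `Q` in both preimages
  set A := S1 ⊓ Q ⊓ Q.map (MulAut.conj k).toMonoidHom with hA'
  have hA : ∀ {c : G}, c ∈ A ↔ c ∈ S1 ∧ c ∈ Q ∧ k⁻¹ * c * k ∈ Q := fun {c} => by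
    rw [hA', Subgroup.mem_inf, Subgroup.mem_inf, and_assoc]
    refine and_congr_right fun _ => and_congr_right fun _ => ?_
    exact LargeExtraspecial.mem_conj_iff Q k c
  have hAbot : A = ⊥ := by
    by_contra hA0
    obtain ⟨c, hc, hc1, hcc⟩ := exists_central hS1.twoGroup (fun c hc => (hA.1 hc).1)
      (fun x hx c hc => by
        obtain ⟨c1, c2, c3⟩ := hA.1 hc
        refine hA.2 ⟨S1.mul_mem (S1.mul_mem hx c1) (S1.inv_mem hx),
          F.setup.conj_mem (hS1.comm x hx).1 c2, ?_⟩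
        have := F.setup.conj_mem (hS2.comm _ (hback hx)).1 c3
        rwa [show k⁻¹ * x * k * (k⁻¹ * c * k) * (k⁻¹ * x * k)⁻¹ = k⁻¹ * (x * c * x⁻¹) * k by group] at this)
      hA0
    obtain ⟨c1, c2, c3⟩ := hA.1 hc
    obtain rfl : c = z := (hS1.central c c2 c1 hcc).resolve_left hc1
    have hne' : k⁻¹ * c * k⁻¹⁻¹ ≠ c := fun e => hne (by
      calc z' = k * (k⁻¹ * c * k⁻¹⁻¹) * k⁻¹ := by rw [e]
        _ = c := by group)
    have := LargeExtraspecial.mem_conj_of_conj_mem F.setup.setting (by rw [F.setup.card_Q]; norm_num)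
      k⁻¹ (by rw [inv_inv]; exact c3) hne'
    refine hz'Q ?_
    have := (LargeExtraspecial.mem_conj_iff Q k⁻¹ c).1 this
    rwa [inv_inv] at this
  -- the embedding of the image
  let D2 := {x : G // x ∈ Q ∧ x * y2 = y2 * x}
  have hD2 : 64 ≤ Nat.card D2 := by
    choose l hl hlp using F.setup.pr_surj
    have hcard : Nat.card (ZMod 2 × {v : V // Perp a2 b2 v}) = 64 := by
      rw [Nat.card_eq_fintype_card, Fintype.card_prod, h2.perp, ZMod.card]
    rw [← hcard]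
    have hmem : ∀ (i : ZMod 2) (v : V), l v * pw z i ∈ Q ∧ pr (l v * pw z i) = v := by
      intro i v
      rcases zmod_cases i with rfl | rfl
      · rw [pw_zero, mul_one]; exact ⟨hl v, hlp v⟩
      · rw [pw_one, F.setup.pr_mul _ (hl v) _ F.setup.z_mem, F.setup.pr_z, add_zero]
        exact ⟨Q.mul_mem (hl v) F.setup.z_mem, hlp v⟩
    refine Nat.card_le_card_of_injective
      (fun p => ⟨l p.2 * pw z p.1, (hmem p.1 p.2).1,
        (F.comm_pair_iff h2.ne hy2 (hmem p.1 p.2).1).2 (by rw [(hmem p.1 p.2).2]; exact p.2.2)⟩) ?_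
    rintro ⟨i, v, hv⟩ ⟨i', v', hv'⟩ e
    have e' : l v * pw z i = l v' * pw z i' := congrArg Subtype.val e
    have ev := congrArg pr e'
    rw [(hmem i v).2, (hmem i' v').2] at ev
    subst ev
    have e'' := mul_left_cancel e'
    rcases zmod_cases i with rfl | rfl <;> rcases zmod_cases i' with rfl | rfl
    · rfl
    · exact absurd e''.symm F.setup.z_ne
    · exact absurd e'' F.setup.z_ne
    · rfl
  have hD2S : ∀ x : D2, k * x.1 * k⁻¹ ∈ S1 := fun x => (hmap _).1 (hS2.contains _ x.2.1 x.2.2)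
  have hfix : ∀ (x : D2) (v : V), Perp a1 b1 v → app (act (k * x.1 * k⁻¹)) v = v := by
    intro x v hv
    obtain ⟨d, hd, rfl⟩ := F.setup.pr_surj v
    have hdS := hS1.contains d hd ((F.comm_pair_iff h1.ne hy1 hd).2 hv)
    have hxz := (hS1.comm _ (hD2S x)).1
    have hc : k * x.1 * k⁻¹ * d * (k * x.1 * k⁻¹)⁻¹ * d⁻¹ ∈ A := by
      refine hA.2 ⟨S1.mul_mem (S1.mul_mem (S1.mul_mem (hD2S x) hdS) (S1.inv_mem (hD2S x)))
        (S1.inv_mem hdS), Q.mul_mem (F.setup.conj_mem hxz hd) (Q.inv_mem hd), ?_⟩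
      rw [show k⁻¹ * (k * x.1 * k⁻¹ * d * (k * x.1 * k⁻¹)⁻¹ * d⁻¹) * k =
        x.1 * (k⁻¹ * d * k * x.1⁻¹ * (k⁻¹ * d * k)⁻¹) by group]
      exact Q.mul_mem x.2.1 (F.setup.conj_mem (hS2.comm _ (hback hdS)).1 (Q.inv_mem x.2.1))
    rw [hAbot, Subgroup.mem_bot] at hc
    rw [← F.setup.act_pr _ hxz d hd, mul_inv_eq_one.1 hc]
  have hle : Nat.card D2 ≤ Nat.card {f : Iso // ∀ v, Perp a1 b1 v → app f v = v} := by
    refine Nat.card_le_card_of_injective (fun x => ⟨_, hfix x⟩) fun x x' e => ?_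
    have e' : act (k * x.1 * k⁻¹) = act (k * x'.1 * k⁻¹) := congrArg Subtype.val e
    have hxz := (hS1.comm _ (hD2S x)).1
    have hxz' := (hS1.comm _ (hD2S x')).1
    have hc : (k * x.1 * k⁻¹)⁻¹ * (k * x'.1 * k⁻¹) ∈ A := by
      refine hA.2 ⟨S1.mul_mem (S1.inv_mem (hD2S x)) (hD2S x'), ?_, ?_⟩
      · refine (F.setup.act_ker _ (F.setup.comm_mul (F.setup.comm_inv hxz) hxz')).1 ?_
        rw [F.setup.act_mul _ _ (F.setup.comm_inv hxz) hxz', F.setup.act_inv hxz, e', inv_mul_cancel]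
      · rw [show k⁻¹ * ((k * x.1 * k⁻¹)⁻¹ * (k * x'.1 * k⁻¹)) * k = x.1⁻¹ * x'.1 by group]
        exact Q.mul_mem (Q.inv_mem x.2.1) x'.2.1
    rw [hAbot, Subgroup.mem_bot, inv_mul_eq_one] at hc
    exact Subtype.ext (mul_left_cancel (mul_right_cancel hc))
  have := h1.fixer
  omega

/-- The distinguished subgroup is a Sylow 2-subgroup of the centralizer. -/
theorem dist_sylow {a b : V6} (hd : Std z s act a b) {y : G} (hy : IsPair Q z s g pr act a b y)
    {S : Subgroup G} (hS : Dist z Q y S) :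
    ∀ T : Subgroup G, S ≤ T → IsPGroup 2 ↥T → (∀ x ∈ T, x * y = y * x) → T = S := by
  haveI : Fact (Nat.Prime 2) := ⟨Nat.prime_two⟩
  intro T hST hT hTy
  haveI : Group.IsNilpotent ↥T := hT.isNilpotent
  by_contra hne
  have hlt : S.subgroupOf T < ⊤ := lt_top_iff_ne_top.2 fun e =>
    hne (le_antisymm (Subgroup.subgroupOf_eq_top.1 e) hST)
  obtain ⟨k, hk, hkS⟩ := SetLike.exists_of_lt (Group.normalizerCondition_of_isNilpotent _ hlt)
  have hnorm : ∀ x, x ∈ S ↔ (k : G) * x * (k : G)⁻¹ ∈ S := by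
    intro x
    constructor
    · intro hx
      exact (Subgroup.mem_normalizer_iff.1 hk ⟨x, hST hx⟩).1 hx
    · intro hx
      have hxT : x ∈ T := by
        have := T.mul_mem (T.mul_mem (T.inv_mem k.2) (hST hx)) k.2
        rwa [show (k : G)⁻¹ * ((k : G) * x * (k : G)⁻¹) * (k : G) = x by group] at this
      exact (Subgroup.mem_normalizer_iff.1 hk ⟨x, hxT⟩).2 hx
  have hkz := F.fix_z hd hd hy hy hS hS (k := (k : G))
    (by rw [hTy _ k.2, mul_inv_cancel_right]) hnorm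
  refine hkS ?_
  show (k : G) ∈ S
  have hT' : T ⊓ Subgroup.centralizer ({z} : Set G) = S := hS.maximal _
    (le_inf hST fun x hx => mem_cent_iff.2 (hS.comm x hx).1) (hT.to_le inf_le_left)
    fun x hx => ⟨mem_cent_iff.1 hx.2, hTy x hx.1⟩
  rw [← hT']
  exact ⟨k.2, mem_cent_iff.2 (mul_inv_eq_iff_eq_mul.1 hkz)⟩

/-- Every 2-subgroup of the centralizer goes into the distinguished subgroup. -/
theorem exists_into {a b : V6} (hd : Std z s act a b) {y : G} (hy : IsPair Q z s g pr act a b y)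
    {S : Subgroup G} (hS : Dist z Q y S) {P : Subgroup G} (hP : IsPGroup 2 ↥P)
    (hPy : ∀ x ∈ P, x * y = y * x) : ∃ h, h * y = y * h ∧ ∀ x ∈ P, h * x * h⁻¹ ∈ S := by
  haveI : Fact (Nat.Prime 2) := ⟨Nat.prime_two⟩
  set C := Subgroup.centralizer ({y} : Set G) with hC
  have hPC : P ≤ C := fun x hx => mem_cent_iff.2 (hPy x hx)
  have hSC : S ≤ C := fun x hx => mem_cent_iff.2 (hS.comm x hx).2
  obtain ⟨T, hT⟩ := (hS.twoGroup.comap_subtype (K := C)).exists_le_sylow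
  obtain ⟨R, hR⟩ := (hP.comap_subtype (K := C)).exists_le_sylow
  obtain ⟨h, hh⟩ := MulAction.exists_smul_eq ↥C R T
  refine ⟨h, mem_cent_iff.1 h.2, fun x hx => ?_⟩
  have hTS : (T : Subgroup ↥C).map C.subtype = S := by
    refine F.dist_sylow hd hy hS _ (fun t ht => ⟨⟨t, hSC ht⟩, hT (show (⟨t, hSC ht⟩ : ↥C) ∈ S.subgroupOf C from ht), rfl⟩)
      (T.isPGroup'.map _) ?_
    rintro _ ⟨t, -, rfl⟩
    exact mem_cent_iff.1 t.2
  rw [← hTS]
  refine ⟨h * ⟨x, hPC hx⟩ * h⁻¹, ?_, rfl⟩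
  rw [← hh]
  exact Subgroup.smul_mem_pointwise_smul (α := MulAut ↥C) _ (MulAut.conj h) _
    (hR (show (⟨x, hPC hx⟩ : ↥C) ∈ P.subgroupOf C from hx))

end Frame

end CfsgLib.ConwayType59
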